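import Cfsg.Agent.Lib.Spor55.FusQuot
import Cfsg.Agent.Lib.AutCl.PolarTv

/-!
Sylow subgroups in the defining characteristic of groups of isometries of a polar space with
transvections: generation by point radicals.
-/

set_option autoImplicit false
set_option linter.unusedSectionVars false
open H28 H67 Module

namespace H55.Fus

variable {F V : Type*} [Field F] [AddCommGroup V] [Module F V] {σ : F →+* F}
  {P : PQ F V σ} {G : Type*} [Group G] (T : Setup P G)

/-- pointwise stabiliser of a set of vectors -/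
def fixS (H : Set V) : Subgroup G where
  carrier := {x | ∀ h ∈ H, T.ρ x h = h}
  one_mem' := fun h _ => T.one_apply h
  mul_mem' := fun {x y} hx hy h hh => by rw [T.mul_apply, hy h hh, hx h hh]
  inv_mem' := fun {x} hx h hh => T.inv_eq (hx h hh)

theorem mem_fixS {H : Set V} {x : G} : x ∈ fixS T H ↔ ∀ h ∈ H, T.ρ x h = h := Iff.rfl

/-- the form is nondegenerate on `H` -/
def Nd (P : PQ F V σ) (H : Submodule F V) : Prop := ∀ x ∈ H, (∀ h ∈ H, P.B h x = 0) → x = 0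

theorem nd_bot : Nd P ⊥ := fun _ hx _ => hx

theorem Nd.sup {H : Submodule F V} (hH : Nd P H) {d f : V} (h : Hyp P d f)
    (hd : ∀ x ∈ H, P.B d x = 0) (hf : ∀ x ∈ H, P.B f x = 0) :
    Nd P (H ⊔ Submodule.span F {d, f}) := by
  intro x hx h0
  obtain ⟨y, hy, z, hz, rfl⟩ := Submodule.mem_sup.1 hx
  obtain ⟨a, b, rfl⟩ := Submodule.mem_span_pair.1 hz
  have h1 := h0 d (Submodule.mem_sup_right (Submodule.subset_span (by simp)))
  have h2 := h0 f (Submodule.mem_sup_right (Submodule.subset_span (by simp)))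
  simp only [map_add, map_smul, smul_eq_mul, hd y hy, hf y hy, h.ee, h.ef, h.fe, h.ff, mul_zero,
    mul_one, zero_add, add_zero, mul_eq_zero, P.ε_ne_zero, or_false] at h1 h2
  subst h1 h2
  simp only [zero_smul, add_zero] at h0 ⊢
  exact hH y hy fun h hh => h0 h (Submodule.mem_sup_left hh)

theorem Nd.notMem {H : Submodule F V} (hH : Nd P H) {d : V} (h0 : d ≠ 0)
    (hd : ∀ x ∈ H, P.B d x = 0) : d ∉ H :=
  fun hm => h0 (hH d hm fun h hh => P.eq_zero_symm (hd h hh))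

variable [FiniteDimensional F V]

/-- connectedness of the non-collinearity graph in the perpendicular of `H` -/
theorem Nd.conn (hP : P.B.SeparatingLeft) {H : Submodule F V} (hH : Nd P H) {Pr : V → Prop}
    (step : ∀ a b, P.q a ∈ P.Λ → P.q b ∈ P.Λ → (∀ x ∈ H, P.B a x = 0) → (∀ x ∈ H, P.B b x = 0) →
      P.B a b ≠ 0 → Pr a → Pr b) {a b : V} (qa : P.q a ∈ P.Λ) (qb : P.q b ∈ P.Λ)
    (ha : ∀ x ∈ H, P.B a x = 0) (hb : ∀ x ∈ H, P.B b x = 0) (a0 : a ≠ 0) (b0 : b ≠ 0)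
    (h : Pr a) : Pr b := by
  by_cases hab : P.B a b = 0
  swap
  · exact step a b qa qb ha hb hab h
  obtain ⟨y, hy, hyH⟩ := exists_hyp hP H (hH.notMem a0 ha) qa ha
  by_cases hyb : P.B y b = 0
  swap
  · exact step y b hy.qf qb hyH hb hyb (step a y qa hy.qf ha hyH (by simp [hy.ef]) h)
  have hb' : ∀ x ∈ H ⊔ Submodule.span F {a, y}, P.B b x = 0 := fun x hx => by
    obtain ⟨y, hy, z, hz, rfl⟩ := Submodule.mem_sup.1 hx
    obtain ⟨s, t, rfl⟩ := Submodule.mem_span_pair.1 hz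
    simp [hb y hy, P.eq_zero_symm hab, P.eq_zero_symm hyb]
  obtain ⟨y', hy', hyH'⟩ := exists_hyp hP _ ((hH.sup hy ha hyH).notMem b0 hb') qb hb'
  have e1 := hyH' a (Submodule.mem_sup_right (Submodule.subset_span (by simp)))
  have e2 := hyH' y (Submodule.mem_sup_right (Submodule.subset_span (by simp)))
  have q := q_add_mem' P hy.qf hy'.qf (P.eq_zero_symm e2)
  have hH' : ∀ x ∈ H, P.B (y + y') x = 0 := fun x hx => by
    simp [hyH x hx, hyH' x (Submodule.mem_sup_left hx)]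
  exact step _ b q qb hH' hb (by simp [hyb, hy'.fe, P.ε_ne_zero])
    (step a _ qa q ha hH' (by simp [hy.ef, P.eq_zero_symm e1]) h)

theorem exists_lam (hΛ : P.Λ ≠ ⊥) : ∃ l, l ≠ 0 ∧ P.ε * l ∈ P.Λ := by
  obtain ⟨l, hl, hl0⟩ := (AddSubgroup.bot_or_exists_ne_zero P.Λ).resolve_left hΛ
  exact ⟨P.ε * l, mul_ne_zero P.ε_ne_zero hl0, by rwa [← mul_assoc, P.εε, one_mul]⟩

theorem exists_move (hΛ : P.Λ ≠ ⊥) {a b : V} (qa : P.q a ∈ P.Λ) (qb : P.q b ∈ P.Λ)
    (h : P.B a b ≠ 0) : ∃ (g : G) (s : F), s ≠ 0 ∧ T.ρ g a = s • b := by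
  obtain ⟨d, hd0, hd⟩ := exists_lam hΛ
  have a0 : a ≠ 0 := fun e => h (by simp [e])
  have b0 : b ≠ 0 := fun e => h (by simp [e])
  have h' : P.B b a ≠ 0 := fun e => h (P.eq_zero_symm e)
  have hε := P.ε_ne_zero
  have hs : σ d = -(P.ε * d) := by
    have := P.tr_mem _ hd
    rw [map_mul, P.σε] at this
    linear_combination this - σ d * P.εε
  obtain ⟨x, -, hx⟩ := T.exists_inT b0 qb hd
  obtain ⟨y, -, hy⟩ := T.exists_inT a0 qa (c := -(d * P.B b a * P.B a b)⁻¹) (by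
    convert P.norm_mem (d * P.B a b)⁻¹ _ hd using 1
    have h2 : σ (P.B a b) ≠ 0 := (map_ne_zero σ).2 h
    rw [P.symm a b, map_inv₀, map_mul, hs]
    field_simp)
  refine ⟨y * x, d * P.B b a, mul_ne_zero hd0 h', ?_⟩
  rw [T.mul_apply, hx, hy]
  simp only [map_add, map_smul, smul_eq_mul, P.self_eq_zero qa]
  match_scalars
  · field_simp; ring
  · ring

theorem exists_trans (hΛ : P.Λ ≠ ⊥) {a b : V} (qa : P.q a ∈ P.Λ) (qb : P.q b ∈ P.Λ)
    (a0 : a ≠ 0) (b0 : b ≠ 0) : ∃ (g : G) (s : F), s ≠ 0 ∧ T.ρ g a = s • b := by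
  refine nd_bot.conn T.sep (Pr := fun b => ∃ (g : G) (s : F), s ≠ 0 ∧ T.ρ g a = s • b) ?_ qa qb (by simp)
    (by simp) a0 b0 ⟨1, 1, one_ne_zero, by simp⟩
  rintro x y qx qy - - h ⟨g, s, hs, e⟩
  obtain ⟨g', s', hs', e'⟩ := exists_move T hΛ qx qy h
  exact ⟨g' * g, s * s', mul_ne_zero hs hs', by rw [T.mul_apply, e, map_smul, e', smul_smul]⟩

variable {p : ℕ} [Fact p.Prime] [CharP F p] [Finite V]

theorem exists_fixed_mem (ρ : G →* Module.End F V) {R : Subgroup G} (hR : IsPGroup p R)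
    (W : Submodule F V) (hW : ∀ x ∈ R, ∀ w ∈ W, ρ x w ∈ W) {w : V} (hw : w ∈ W) (h0 : w ≠ 0) :
    ∃ v ∈ W, v ≠ 0 ∧ ∀ x ∈ R, ρ x v = v := by
  let ρ' : R →* Module.End F W :=
    { toFun := fun x => (ρ x).restrict (hW x x.2)
      map_one' := by ext; simp
      map_mul' := fun x y => by ext; simp }
  have : Nontrivial W := ⟨⟨⟨w, hw⟩, 0, fun e => h0 (congrArg Subtype.val e)⟩⟩
  obtain ⟨v, hv, h⟩ := exists_fixed_vector ρ' (P := ⊤) (hR.to_subgroup ⊤)
  exact ⟨v, v.2, fun e => hv (Subtype.ext e), fun x hx => congrArg Subtype.val (h ⟨x, hx⟩ trivial)⟩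

/-- the elements of `R` lying in a point radical -/
def radElts (R : Subgroup G) : Set G := {x | x ∈ R ∧ ∃ d, d ≠ 0 ∧ P.q d ∈ P.Λ ∧ x ∈ T.QG d}

theorem le_normalizer_QG [Finite G] {H : Submodule F V} {d : V} {R : Subgroup G}
    (h1 : R ≤ fixS T H) (h2 : ∀ x ∈ R, T.ρ x d = d) :
    R ≤ Subgroup.normalizer ((T.QG d ⊓ fixS T H : Subgroup G) : Set G) := fun x hx =>
  H90.mem_normalizer_of_conj_mem fun _ hy => ⟨h2 x hx ▸ T.conj_mem_QG hy.1 x,
    (fixS T H).mul_mem ((fixS T H).mul_mem (h1 hx) hy.2) ((fixS T H).inv_mem (h1 hx))⟩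

theorem exists_gen [Finite G] (hmax : ∀ v, P.B v v = 0 → P.q v ∈ P.Λ) (k : ℕ) :
    ∀ H : Submodule F V, Nd P H → finrank F V ≤ finrank F H + k → ∀ R : Subgroup G,
      IsPGroup p R → R ≤ fixS T H → ∃ R' : Subgroup G, IsPGroup p R' ∧ R' ≤ fixS T H ∧ R ≤ R' ∧
        R' ≤ Subgroup.closure (radElts T R') := by
  induction k with
  | zero =>
    intro H _ hk R _ hR
    have : H = ⊤ := Submodule.eq_top_of_finrank_eq (le_antisymm (Submodule.finrank_le _) hk)
    exact ⟨⊥, IsPGroup.of_bot, bot_le, fun x hx => T.ext fun v => by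
      rw [T.one_apply]; exact hR hx v (this ▸ trivial), bot_le⟩
  | succ k ih =>
    intro H hH hk R hp hR
    by_cases h0 : R ≤ ⊥
    · exact ⟨⊥, IsPGroup.of_bot, bot_le, h0, bot_le⟩
    obtain ⟨x₀, hx₀, hx1⟩ := SetLike.not_le_iff_exists.1 h0
    obtain ⟨v₀, hv₀⟩ : ∃ v, T.ρ x₀ v - v ≠ 0 := by
      by_contra hc
      push Not at hc
      exact hx1 (T.ext fun v => by rw [T.one_apply]; exact sub_eq_zero.1 (hc v))
    obtain ⟨d, hdm, d0, hd⟩ := exists_fixed_mem T.ρ hp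
      (Submodule.span F {w | ∃ x ∈ R, ∃ v, w = T.ρ x v - v}) (fun x hx w hw => by
        have : T.ρ x w - w ∈ Submodule.span F {w | ∃ x ∈ R, ∃ v, w = T.ρ x v - v} :=
          Submodule.subset_span ⟨x, hx, w, rfl⟩
        simpa using Submodule.add_mem _ this hw) (Submodule.subset_span ⟨x₀, hx₀, v₀, rfl⟩) hv₀
    have key : ∀ h, (∀ x ∈ R, T.ρ x h = h) → P.B h d = 0 := fun h hh => by
      refine Submodule.span_induction (p := fun w _ => P.B h w = 0) ?_ (by simp)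
        (fun a b _ _ ha hb => by simp [ha, hb]) (fun a b _ hb => by simp [hb]) hdm
      rintro _ ⟨x, hx, v, rfl⟩
      exact T.B_sub_eq_zero (hh x hx) v
    have qd := hmax d (key d hd)
    have hdH : ∀ h ∈ H, P.B d h = 0 := fun h hh =>
      P.eq_zero_symm (key h fun x hx => hR hx h hh)
    obtain ⟨f, hf, hfH⟩ := exists_hyp T.sep H (hH.notMem d0 hdH) qd hdH
    have hQ : IsPGroup p (T.QG d ⊓ fixS T H : Subgroup G) := (T.isPGroup_QG d).to_inf_left
    have hfix : ∀ {x}, x ∈ fixS T (H ⊔ Submodule.span F {d, f} : Submodule F V) ↔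
        x ∈ fixS T H ∧ T.ρ x d = d ∧ T.ρ x f = f := fun {x} =>
      ⟨fun h => ⟨fun y hy => h y (Submodule.mem_sup_left hy),
        h d (Submodule.mem_sup_right (Submodule.subset_span (by simp))),
        h f (Submodule.mem_sup_right (Submodule.subset_span (by simp)))⟩, fun h y hy => by
        obtain ⟨y, hy', z, hz, rfl⟩ := Submodule.mem_sup.1 hy
        obtain ⟨s, t, rfl⟩ := Submodule.mem_span_pair.1 hz
        simp [h.1 y hy', h.2.1, h.2.2]⟩
    obtain ⟨R', p', f', l', g'⟩ := ih _ (hH.sup hf hdH hfH) (by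
      have : H < H ⊔ Submodule.span F {d, f} := lt_of_le_of_ne le_sup_left fun e =>
        hH.notMem d0 hdH (e ▸ Submodule.mem_sup_right (Submodule.subset_span (by simp)))
      have := Submodule.finrank_lt_finrank_of_lt this
      omega) (((T.QG d ⊓ fixS T H) ⊔ R) ⊓ fixS T (H ⊔ Submodule.span F {d, f} : Submodule F V))
      (hQ.to_sup_of_normal_left' hp (le_normalizer_QG T hR hd)).to_inf_left inf_le_right
    have f'' : R' ≤ fixS T H := fun x hx => (hfix.1 (f' hx)).1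
    refine ⟨(T.QG d ⊓ fixS T H) ⊔ R', hQ.to_sup_of_normal_left' p'
      (le_normalizer_QG T f'' fun x hx => (hfix.1 (f' hx)).2.1), sup_le inf_le_right f'',
      fun x hx => ?_, sup_le (fun x hx => Subgroup.subset_closure
        ⟨Subgroup.mem_sup_left hx, d, d0, qd, hx.1⟩) (g'.trans (Subgroup.closure_mono
          fun x hx => ⟨Subgroup.mem_sup_right hx.1, hx.2⟩))⟩
    obtain ⟨w, h1, h2, h3⟩ := hf.decomp (T.ρ x f)
    have h4 := T.B_sub_eq_zero (hd x hx) f
    rw [map_sub, hf.ef, sub_eq_zero] at h4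
    rw [h4, one_smul] at h3
    obtain ⟨y, hy, e1, e2⟩ := T.exists_QG hf h1 h2 (h3 ▸ T.sing x hf.qf)
    have hyH : y ∈ fixS T H := fun h hh => by
      have h5 := T.isoB x f h
      rw [hR hx h hh, h3, hfH h hh] at h5
      simp only [map_add, LinearMap.add_apply, hfH h hh, LinearMap.map_smulₛₗ,
        LinearMap.smul_apply, hdH h hh, smul_zero, add_zero, zero_add] at h5
      rw [e2, eichT_apply]
      simp [hdH h hh, h5]
    have hy' : y ∈ T.QG d ⊓ fixS T H := ⟨hy, hyH⟩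
    have : y⁻¹ * x ∈ R' := l' ⟨Subgroup.mul_mem _ (Subgroup.inv_mem _ (Subgroup.mem_sup_left hy'))
      (Subgroup.mem_sup_right hx), hfix.2 ⟨(fixS T H).mul_mem ((fixS T H).inv_mem hyH) (hR hx),
        by rw [T.mul_apply, hd x hx, T.inv_eq hy.1], by rw [T.mul_apply, h3, ← e1, T.inv_apply]⟩⟩
    simpa using Subgroup.mul_mem _ (Subgroup.mem_sup_left hy') (Subgroup.mem_sup_right this)

/-- a Sylow subgroup is generated by its intersections with the point radicals -/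
theorem sylow_le_closure [Finite G] (hmax : ∀ v, P.B v v = 0 → P.q v ∈ P.Λ) (U : Sylow p G) :
    (U : Subgroup G) ≤ Subgroup.closure (radElts T U) := by
  obtain ⟨R, h1, -, h2, h3⟩ := exists_gen T hmax (finrank F V) ⊥ nd_bot (by simp) U U.isPGroup'
    (fun x _ h hh => by rw [(Submodule.mem_bot F).1 hh, map_zero])
  rwa [U.is_maximal' h1 h2] at h3

theorem Closed.le_of_QG [Finite G] (hmax : ∀ v, P.B v v = 0 → P.q v ∈ P.Λ) (hΛ : P.Λ ≠ ⊥)
    {U : Sylow p G} {N : Subgroup G} (hN : Closed (U : Subgroup G) N) {e : V} (e0 : e ≠ 0)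
    (qe : P.q e ∈ P.Λ) (h : T.QG e ≤ N) : (U : Subgroup G) ≤ N := by
  refine (sylow_le_closure T hmax U).trans ((Subgroup.closure_le _).2 ?_)
  rintro x ⟨hx, d, d0, qd, hd⟩
  obtain ⟨g, s, hs, e⟩ := exists_trans T hΛ qd qe d0 e0
  have h1 := T.QG_smul (inv_ne_zero hs) (T.conj_mem_QG hd g)
  rw [e, smul_smul, inv_mul_cancel₀ hs, one_smul] at h1
  have := hN.2 _ (h h1) g⁻¹ (by simpa [mul_assoc] using hx)
  simpa [mul_assoc] using this

theorem eqns_FusPolar : True := by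
  have := @fixS.eq_1.{0, 0, 0}
  have := @Nd.eq_1.{0, 0}
  have := @radElts.eq_1.{0, 0, 0}
  trivial

end H55.Fus
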