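import Cfsg.Agent.Lib.Spor55.FusPolar

/-!
The fusion criterion in the defining characteristic for groups of isometries of a polar space of
rank at least two with transvections.
-/

set_option autoImplicit false
set_option linter.unusedSectionVars false
open H28 H67 Module

namespace H55.Fus

variable {F V : Type*} [Field F] [AddCommGroup V] [Module F V] {σ : F →+* F}
  {P : PQ F V σ} {G : Type*} [Group G] (T : Setup P G)

/-- two orthogonal hyperbolic pairs -/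
structure Fr (P : PQ F V σ) (e f u v : V) : Prop where
  h : Hyp P e f
  h' : Hyp P u v
  eu : P.B e u = 0
  ev : P.B e v = 0
  fu : P.B f u = 0
  fv : P.B f v = 0

theorem Fr.swap {e f u v : V} (D : Fr P e f u v) : Fr P u v e f :=
  ⟨D.h', D.h, P.eq_zero_symm D.eu, P.eq_zero_symm D.fu, P.eq_zero_symm D.ev, P.eq_zero_symm D.fv⟩

/-- the flag of a point on a line -/
def flagCh (P : PQ F V σ) (e u : V) : ℕ → Submodule F V
  | 0 => ⊥
  | 1 => Submodule.span F {e}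
  | 2 => Submodule.span F {e, u}
  | 3 => pp P e ⊓ pp P u
  | 4 => pp P e
  | _ + 5 => ⊤

variable {e f u v : V}

theorem Fr.perp (D : Fr P e f u v) {l : V} (hl : l ∈ Submodule.span F {e, u}) :
    P.B e l = 0 ∧ P.B u l = 0 := by
  obtain ⟨a, b, rfl⟩ := Submodule.mem_span_pair.1 hl
  simp [D.h.ee, D.h'.ee, D.eu, D.swap.eu]

theorem Fr.mono (D : Fr P e f u v) : ∀ i, flagCh P e u i ≤ flagCh P e u (i + 1)
  | 0 => bot_le
  | 1 => Submodule.span_mono (by simp)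
  | 2 => fun _ hl => D.perp hl
  | 3 => inf_le_left
  | 4 => le_top
  | _ + 5 => le_rfl

theorem e_mem (e u : V) : e ∈ Submodule.span F {e, u} := Submodule.subset_span (by simp)
theorem u_mem (e u : V) : u ∈ Submodule.span F {e, u} := Submodule.subset_span (by simp)

/-- the radical of the stabiliser of the flag -/
def Fr.R2 (D : Fr P e f u v) : Subgroup G := flagUni T.ρ (flagCh P e u) D.mono

theorem B_u_eq {x : G} (h1 : T.ρ x e = e) {a : F} (h2 : T.ρ x u = u + a • e) {w : V}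
    (hw : P.B e w = 0) : P.B e (T.ρ x w) = 0 ∧ P.B u (T.ρ x w) = P.B u w := by
  have h3 := T.B_sub_eq_zero h1 w
  rw [map_sub, hw, sub_zero] at h3
  have h4 := T.isoB x u w
  rw [h2] at h4
  exact ⟨h3, by simpa [h3] using h4⟩

theorem Fr.mem_R2 [Finite G] (D : Fr P e f u v) {x : G} : x ∈ D.R2 T ↔ T.ρ x e = e ∧
    (∃ a : F, T.ρ x u = u + a • e) ∧
      ∀ w, P.B e w = 0 → P.B u w = 0 → T.ρ x w - w ∈ Submodule.span F {e, u} := by
  rw [Fr.R2, mem_flagUni]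
  refine ⟨fun h => ⟨sub_eq_zero.1 (h 0 e (Submodule.mem_span_singleton_self e)), ?_,
    fun w h1 h2 => h 2 w ⟨h1, h2⟩⟩, fun ⟨h1, ⟨a, h2⟩, h3⟩ i w hw => ?_⟩
  · obtain ⟨a, ha⟩ := Submodule.mem_span_singleton.1 (h 1 u (u_mem e u))
    exact ⟨a, by rw [ha]; abel⟩
  match i, hw with
  | 0, hw =>
    obtain ⟨c, rfl⟩ := Submodule.mem_span_singleton.1 hw
    simp [h1, flagCh]
  | 1, hw =>
    obtain ⟨c, d, rfl⟩ := Submodule.mem_span_pair.1 hw
    exact Submodule.mem_span_singleton.2 ⟨d * a, by simp only [map_add, map_smul, h1, h2]; module⟩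
  | 2, hw => exact h3 w hw.1 hw.2
  | 3, hw => exact ⟨T.B_sub_eq_zero h1 w, by
      show P.B u _ = 0
      rw [map_sub, (B_u_eq T h1 h2 hw).2, sub_self]⟩
  | 4, _ => exact T.B_sub_eq_zero h1 w
  | _ + 5, _ => trivial

theorem Fr.QG_le [Finite G] (D : Fr P e f u v) : T.QG e ≤ D.R2 T := fun x hx =>
  (D.mem_R2 T).2 ⟨hx.1, hx.2 u D.eu, fun w h _ => by
    obtain ⟨b, hb⟩ := hx.2 w h
    rw [hb, add_sub_cancel_left]; exact Submodule.smul_mem _ _ (e_mem e u)⟩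

/-- the radical of the stabiliser of the line -/
def Fr.RL (D : Fr P e f u v) : Subgroup G := D.R2 T ⊓ fixS T {u}

theorem Fr.mem_RL [Finite G] (D : Fr P e f u v) {x : G} : x ∈ D.RL T ↔ T.ρ x e = e ∧
    T.ρ x u = u ∧ ∀ w, P.B e w = 0 → P.B u w = 0 → T.ρ x w - w ∈ Submodule.span F {e, u} := by
  rw [Fr.RL, Subgroup.mem_inf, D.mem_R2, mem_fixS]
  exact ⟨fun h => ⟨h.1.1, h.2 u rfl, h.1.2.2⟩,
    fun h => ⟨⟨h.1, ⟨0, by simp [h.2.1]⟩, h.2.2⟩, fun _ e => e ▸ h.2.1⟩⟩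

theorem Fr.mem_RL_swap [Finite G] (D : Fr P e f u v) {x : G} (h : x ∈ D.swap.RL T) :
    x ∈ D.RL T := by
  obtain ⟨h1, h2, h3⟩ := (D.swap.mem_RL T).1 h
  exact (D.mem_RL T).2 ⟨h2, h1, fun w a b => Set.pair_comm u e ▸ h3 w b a⟩

theorem Fr.mem_RL_of_QG [Finite G] (D : Fr P e f u v) {x : G} (h : x ∈ T.QG e)
    (hu : T.ρ x u = u) : x ∈ D.RL T := ⟨D.QG_le T h, fun _ e => e ▸ hu⟩

/-- the elements stabilising the line and centralising its perpendicular modulo the line -/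
def Fr.PL (D : Fr P e f u v) : Subgroup G where
  carrier := {x | ∀ w, P.B e w = 0 → P.B u w = 0 → T.ρ x w - w ∈ Submodule.span F {e, u} ∧
    T.ρ x⁻¹ w - w ∈ Submodule.span F {e, u}}
  one_mem' := fun w _ _ => by simp
  mul_mem' := fun {x y} hx hy w h1 h2 => by
    have key : ∀ a b : G, (∀ w, P.B e w = 0 → P.B u w = 0 →
        T.ρ a w - w ∈ Submodule.span F {e, u}) → T.ρ b w - w ∈ Submodule.span F {e, u} →
        T.ρ (a * b) w - w ∈ Submodule.span F {e, u} := fun a b ha hb => by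
      have h3 := D.perp hb
      simp only [map_sub, h1, h2, sub_zero] at h3
      simpa [T.mul_apply] using Submodule.add_mem _ (ha _ h3.1 h3.2) hb
    exact ⟨key x y (fun w a b => (hx w a b).1) (hy w h1 h2).1,
      mul_inv_rev x y ▸ key _ _ (fun w a b => (hy w a b).2) (hx w h1 h2).2⟩
  inv_mem' := fun {x} hx w h1 h2 => by rw [inv_inv]; exact (hx w h1 h2).symm

theorem Fr.R2_le_PL [Finite G] (D : Fr P e f u v) : D.R2 T ≤ D.PL T := fun _ hx w h1 h2 =>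
  ⟨((D.mem_R2 T).1 hx).2.2 w h1 h2, ((D.mem_R2 T).1 (Subgroup.inv_mem _ hx)).2.2 w h1 h2⟩

theorem Fr.mem_PL_swap (D : Fr P e f u v) {x : G} (h : x ∈ D.swap.PL T) : x ∈ D.PL T :=
  fun w a b => Set.pair_comm u e ▸ h w b a

theorem Fr.PL_mem (D : Fr P e f u v) {x : G} (h : x ∈ D.PL T) {l : V}
    (hl : l ∈ Submodule.span F {e, u}) : T.ρ x l ∈ Submodule.span F {e, u} := by
  simpa using Submodule.add_mem _ (h l (D.perp hl).1 (D.perp hl).2).1 hl

theorem Fr.conj_RL [Finite G] (D : Fr P e f u v) {g : G} (h : g ∈ D.PL T) :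
    ∀ x ∈ D.RL T, g * x * g⁻¹ ∈ D.RL T := by
  intro x hx
  obtain ⟨h1, h2, -⟩ := (D.mem_RL T).1 hx
  have key : ∀ l ∈ Submodule.span F {e, u}, T.ρ (g * x * g⁻¹) l = l := fun l hl => by
    obtain ⟨a, b, e⟩ := Submodule.mem_span_pair.1 (D.PL_mem T ((D.PL T).inv_mem h) hl)
    rw [T.mul_apply, T.mul_apply, ← e, map_add, map_smul, map_smul, h1, h2, e, T.apply_inv]
  exact (D.mem_RL T).2 ⟨key e (e_mem e u), key u (u_mem e u), fun w a b =>
    ((D.PL T).mul_mem ((D.PL T).mul_mem h (D.R2_le_PL T hx.1)) ((D.PL T).inv_mem h) w a b).1⟩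

theorem Fr.exists_A (D : Fr P e f u v) (s : F) :
    ∃ x ∈ T.QG e, T.ρ x u = u + s • e := by
  have h1 : P.B e (σ (P.ε * s) • v) = 0 := by simp [D.ev]
  obtain ⟨x, hx⟩ := T.exE e _ (P.q (σ (P.ε * s) • v)) D.h.e_ne D.h.qe h1 (by simp)
  refine ⟨x, T.mem_QG_of_eichT D.h.qe h1 hx, ?_⟩
  rw [hx, eichT_apply]
  simp only [LinearMap.map_smulₛₗ, LinearMap.smul_apply, P.σσ, D.h'.fe, D.eu, smul_eq_mul]
  match_scalars
  · ring
  · linear_combination s * P.εε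
  · ring

variable {p : ℕ} [Fact p.Prime] [CharP F p] [Finite G]

theorem Fr.isPGroup (D : Fr P e f u v) : IsPGroup p (D.R2 T) :=
  isPGroup_flagUni T.inj D.mono rfl (k := 5) rfl

theorem Fr.exists_h (D : Fr P e f u v) {l : F} (hl : l ≠ 0) :
    ∃ h ∈ D.PL T ⊓ Opp p (D.RL T), T.ρ h e = l • e ∧ T.ρ h u = l⁻¹ • u := by
  have hA : ∀ s : F, ∃ x ∈ D.PL T ⊓ Opp p (D.RL T), T.ρ x e = e ∧ T.ρ x u = u + s • e := fun s => by
    obtain ⟨x, hx, h⟩ := D.exists_A T s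
    have := D.R2_le_PL T (D.QG_le T hx)
    exact ⟨x, ⟨this, mem_opp (D.conj_RL T this) (T.uni_of_mem_QG hx)⟩, hx.1, h⟩
  have hB : ∀ s : F, ∃ x ∈ D.PL T ⊓ Opp p (D.RL T), T.ρ x u = u ∧ T.ρ x e = e + s • u := fun s => by
    obtain ⟨x, hx, h⟩ := D.swap.exists_A T s
    have := D.mem_PL_swap T (D.swap.R2_le_PL T (D.swap.QG_le T hx))
    exact ⟨x, ⟨this, mem_opp (D.conj_RL T this) (T.uni_of_mem_QG hx)⟩, hx.1, h⟩
  obtain ⟨a, ha, a1, a2⟩ := hA l
  obtain ⟨b, hb, b1, b2⟩ := hB (-l⁻¹)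
  obtain ⟨c, hc, c1, c2⟩ := hA (-1)
  obtain ⟨d, hd, d1, d2⟩ := hB 1
  refine ⟨a * b * a * c * d * c, mul_mem (mul_mem (mul_mem (mul_mem (mul_mem ha hb) ha) hc) hd) hc,
    ?_, ?_⟩
  all_goals
    simp only [T.mul_apply, map_add, map_smul, a1, a2, b1, b2, c1, c2, d1, d2]
    match_scalars <;> field_simp <;> ring

variable [FiniteDimensional F V]

theorem fix_of_comm {x y : G} (h : Hyp P e f) (hx : T.Tr x e) (hy : Uni p y)
    (hc : y * x = x * y) : T.ρ y e = e := by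
  obtain ⟨c, hc0, -, h1⟩ := hx.coord
  have h2 := T.commute_iff.1 hc f
  rw [h1, h1, map_add, map_smul, add_right_inj, h.ef, mul_one, mul_smul] at h2
  exact T.fix_of_par hy (smul_right_injective V hc0 h2)

theorem Fr.pc_RL (hΛ : P.Λ ≠ ⊥) (D : Fr P e f u v) : PC p (D.RL T) := by
  intro y hy hp
  obtain ⟨x, hx⟩ := T.exists_tr hΛ D.h.e_ne D.h.qe
  obtain ⟨x', hx'⟩ := T.exists_tr hΛ D.h'.e_ne D.h'.qe
  have h1 := fix_of_comm T D.h hx hp
    (hy x (D.mem_RL_of_QG T (hx.inT.mem_QG hx.q) (hx.inT u D.eu)))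
  have h2 := fix_of_comm T D.h' hx' hp
    (hy x' (D.mem_RL_swap T (D.swap.mem_RL_of_QG T (hx'.inT.mem_QG hx'.q) (hx'.inT e D.swap.eu))))
  refine (D.mem_RL T).2 ⟨h1, h2, fun w hw hw' => ?_⟩
  obtain ⟨x, hx⟩ := T.exE e w (P.q w) D.h.e_ne D.h.qe hw (by simp)
  have h3 := T.conj_eichT y hx
  rw [hy x (D.mem_RL_of_QG T (T.mem_QG_of_eichT D.h.qe hw hx) (by
    rw [hx, eichT_apply]; simp [D.eu, P.eq_zero_symm hw'])), mul_inv_cancel_right, hx, h1] at h3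
  have h4 := LinearMap.congr_fun h3 f
  rw [eichT_apply, eichT_apply, D.h.ef] at h4
  refine Submodule.mem_span_pair.2 ⟨P.ε * (P.B (T.ρ y w) f - P.B w f), 0, ?_⟩
  have := P.εε
  linear_combination (norm := skip) -P.ε • h4
  match_scalars <;> first | ring1 | linear_combination this | linear_combination -this

variable [Finite V]

theorem Fr.sylow_u (hΛ : P.Λ ≠ ⊥) (D : Fr P e f u v) {U : Subgroup G} (hp : IsPGroup p U)
    (hU : D.R2 T ≤ U) {x : G} (hx : x ∈ U) : ∃ a : F, T.ρ x u = u + a • e := by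
  have he := T.sylow_fix D.h.e_ne D.h.qe hp ((D.QG_le T).trans hU)
  obtain ⟨w₀, hw, w0, hfix⟩ := exists_fixed_mem T.ρ (R := U ⊓ fixS T {f}) hp.to_inf_left
    (pp P e ⊓ pp P f) (fun x hx w hw => ⟨by
      have := T.B_sub_eq_zero (he x hx.1) w
      rwa [map_sub, show P.B e w = 0 from hw.1, sub_zero] at this, by
      have := T.B_sub_eq_zero (hx.2 f rfl) w
      rwa [map_sub, show P.B f w = 0 from hw.2, sub_zero] at this⟩) (w := u) ⟨D.eu, D.fu⟩ D.h'.e_ne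
  have key : ∀ w t, P.B e w = 0 → P.B f w = 0 → P.B u w = 0 → t - P.q w ∈ P.Λ →
      eichT P u w t w₀ = w₀ := fun w t h1 h2 h3 ht => by
    obtain ⟨y, hy⟩ := T.exE u w t D.h'.e_ne D.h'.qe h3 ht
    rw [← hy]
    refine hfix y ⟨hU (D.mem_RL_swap T (D.swap.mem_RL_of_QG T (T.mem_QG_of_eichT D.h'.qe h3 hy) ?_)).1,
      fun _ e => e ▸ ?_⟩
    · rw [hy, eichT_apply]; simp [D.swap.eu, P.eq_zero_symm h1]
    · rw [hy, eichT_apply]; simp [D.swap.ev, P.eq_zero_symm h2]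
  have h1 : P.B u w₀ = 0 := by
    obtain ⟨l, hl, hl0⟩ := (AddSubgroup.bot_or_exists_ne_zero P.Λ).resolve_left hΛ
    have := key 0 l (by simp) (by simp) (by simp) (P.Λ.sub_mem hl P.q_zero)
    rw [eichT_apply] at this
    simpa [hl0, P.ε_ne_zero, D.h'.e_ne] using this
  obtain ⟨s, rfl⟩ := eq_smul_of_perp T.sep (e := u) (v := w₀) fun y hy => by
    obtain ⟨w, e1, e2, e3⟩ := D.h.decomp y
    have h2 : P.B u w = 0 := by
      rw [e3] at hy; simpa [D.swap.eu, D.swap.ev] using hy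
    have := key w (P.q w) e1 e2 h2 (by simp)
    rw [eichT_apply] at this
    have h3 : P.B w w₀ = 0 := by simpa [h1, D.h'.e_ne] using this
    rw [e3]
    simp [h3, show P.B e w₀ = 0 from hw.1, show P.B f w₀ = 0 from hw.2]
  have hs : s ≠ 0 := by rintro rfl; simp at w0
  obtain ⟨w, h2, h3, h4⟩ := D.h.decomp (T.ρ x f)
  have h5 := T.B_sub_eq_zero (he x hx) f
  rw [map_sub, D.h.ef, sub_eq_zero] at h5
  rw [h5, one_smul] at h4
  obtain ⟨y, hy, e1, -⟩ := T.exists_QG D.h h2 h3 (h4 ▸ T.sing x D.h.qf)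
  have := hfix (y⁻¹ * x) ⟨U.mul_mem (U.inv_mem (hU (D.QG_le T hy))) hx,
    fun _ e => e ▸ by rw [T.mul_apply, h4, ← e1, T.inv_apply]⟩
  rw [map_smul, T.mul_apply] at this
  obtain ⟨b, hb⟩ := hy.2 u D.eu
  exact ⟨b, by rw [← hb, ← smul_right_injective V hs this, T.apply_inv,
    smul_right_injective V hs this]⟩

theorem Fr.conj_sylow (hΛ : P.Λ ≠ ⊥) (D : Fr P e f u v) {U : Subgroup G} (hp : IsPGroup p U)
    (hU : D.R2 T ≤ U) {h : G} (hh : h ∈ D.PL T) {l m : F} (h1 : T.ρ h e = l • e)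
    (h2 : T.ρ h u = m • u) : ∀ x ∈ U, h * x * h⁻¹ ∈ U := by
  intro x hx
  have he := T.sylow_fix D.h.e_ne D.h.qe hp ((D.QG_le T).trans hU)
  have l0 : l ≠ 0 := fun e => T.ne_zero h D.h.e_ne (by simp [h1, e])
  have m0 : m ≠ 0 := fun e => T.ne_zero h D.h'.e_ne (by simp [h2, e])
  have i1 : T.ρ h⁻¹ e = l⁻¹ • e := T.inv_eq (by rw [map_smul, h1, smul_smul, inv_mul_cancel₀ l0, one_smul])
  have i2 : T.ρ h⁻¹ u = m⁻¹ • u := T.inv_eq (by rw [map_smul, h2, smul_smul, inv_mul_cancel₀ m0, one_smul])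
  obtain ⟨a, ha⟩ := D.sylow_u T hΛ hp hU hx
  obtain ⟨b, hb⟩ := D.sylow_u T hΛ hp hU (U.inv_mem hx)
  have e1 := he x hx
  have e2 := he _ (U.inv_mem hx)
  refine (U.mul_mem_cancel_right (U.inv_mem hx)).1 (hU ((D.mem_R2 T).2 ⟨?_, ⟨b + m⁻¹ * a * l, ?_⟩,
    fun w w1 w2 => ?_⟩))
  · simp only [T.mul_apply, map_smul, e1, e2, h1, i1, smul_smul, inv_mul_cancel₀ l0, one_smul]
  · simp only [T.mul_apply, map_smul, map_add, e1, h1, h2, i1, i2, ha, hb]
    match_scalars <;> field_simp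
    ring
  · obtain ⟨w3, w4⟩ := B_u_eq T e2 hb w1
    rw [w2] at w4
    obtain ⟨s, t, e3⟩ := Submodule.mem_span_pair.1 (hh _ w3 w4).2
    have e4 := Submodule.add_mem _ (hh w w1 w2).1 (D.PL_mem T hh
      (Submodule.mem_span_pair.2 ⟨s + t * a, t, rfl⟩))
    convert e4 using 1
    rw [T.mul_apply, T.mul_apply, T.mul_apply, ← sub_add_cancel (T.ρ h⁻¹ _) (T.ρ x⁻¹ w), ← e3]
    simp only [map_add, map_smul, e1, ha, T.apply_inv]
    module

theorem Fr.top (hΛ : P.Λ ≠ ⊥) (D : Fr P e f u v) {U : Subgroup G} (hp : IsPGroup p U)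
    (hU : D.R2 T ≤ U) (hgen : ∀ g, T.ρ g e = e → T.ρ g f = f →
      g ∈ Subgroup.closure {y | T.ρ y e = e ∧ Uni p y}) : Top p U := by
  intro M hM g hg
  have hQ := (D.QG_le T).trans hU
  have he := T.sylow_fix D.h.e_ne D.h.qe hp hQ
  obtain ⟨l, hl⟩ := T.fixed_QG D.h.e_ne D.h.qe (v := T.ρ g e) fun x hx => by
    have := he _ ((Subgroup.mem_normalizer_iff''.1 (H90.mem_normalizer_of_conj_mem hg) x).1 (hQ hx))
    rw [T.mul_apply, T.mul_apply] at this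
    rw [← T.apply_inv g (T.ρ x _), this]
  have l0 : l ≠ 0 := fun e => T.ne_zero g D.h.e_ne (by simp [hl, e])
  obtain ⟨h, hh, h1, h2⟩ := D.exists_h (p := p) T l0
  have m1 := hM.mem_sub_of_opp (inf_le_left.trans hU) (D.pc_RL T hΛ) hh.2
    (D.conj_sylow T hΛ hp hU hh.1 h1 h2)
  have n1 : h⁻¹ * g ∈ Subgroup.normalizer (U : Set G) :=
    Subgroup.mul_mem _ (Subgroup.inv_mem _ m1.1) (H90.mem_normalizer_of_conj_mem hg)
  have e1 : T.ρ (h⁻¹ * g) e = e := by rw [T.mul_apply, hl, ← h1, T.inv_apply]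
  refine (((hM.sub le_rfl).mul_mem_cancel_left (Subgroup.inv_mem _ m1)).1 (hM.mem_sub_of_opp hQ
    (fun y hy hp => T.mem_QG_of_cent D.h.e_ne D.h.qe hp hy) ?_
    fun x hx => (Subgroup.mem_normalizer_iff.1 n1 x).1 hx)).2
  generalize h⁻¹ * g = x at e1
  obtain ⟨w, h2, h3, h4⟩ := D.h.decomp (T.ρ x f)
  have h5 := T.B_sub_eq_zero e1 f
  rw [map_sub, D.h.ef, sub_eq_zero] at h5
  rw [h5, one_smul] at h4
  obtain ⟨y, hy, e2, -⟩ := T.exists_QG D.h h2 h3 (h4 ▸ T.sing x D.h.qf)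
  have hle : Subgroup.closure {y | T.ρ y e = e ∧ Uni p y} ≤ Opp p (T.QG e) :=
    Subgroup.closure_mono fun y hy => ⟨fun x hx => hy.1 ▸ T.conj_mem_QG hx y, hy.2⟩
  exact ((Opp p (T.QG e)).mul_mem_cancel_left (Subgroup.inv_mem _ (hle (Subgroup.subset_closure
    ⟨hy.1, T.uni_of_mem_QG hy⟩)))).1 (hle (hgen _ (by rw [T.mul_apply, e1, T.inv_eq hy.1])
      (by rw [T.mul_apply, h4, ← e2, T.inv_apply])))

theorem eqns_FusPolar2 : True := by
  have := @flagCh.eq_1.{0, 0}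
  have := @flagCh.eq_def.{0, 0}
  have := @Fr.R2.eq_1.{0, 0, 0}
  have := @Fr.RL.eq_1.{0, 0, 0}
  have := @Fr.PL.eq_1.{0, 0, 0}
  trivial

end H55.Fus
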