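import Cfsg.Agent.Lib.Spor55.FusPolar2

/-!
Strongly closed subgroups of a Sylow subgroup in the defining characteristic of a group of
isometries of a polar space of rank at least two with transvections.
-/

set_option autoImplicit false
set_option linter.unusedSectionVars false
open H28 H67 Module

namespace H55.Fus

variable {F V : Type*} [Field F] [AddCommGroup V] [Module F V] {σ : F →+* F}
  {P : PQ F V σ} {G : Type*} [Group G] (T : Setup P G) {e f u v : V}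

/-- coordinates of the elements of the radical of the point `e` -/
structure Co (e f : V) (x : G) (w : V) (c : F) : Prop where
  q : x ∈ T.QG e
  ew : P.B e w = 0
  fw : P.B f w = 0
  eq : T.ρ x f = f + w + c • e

variable {T} {N U : Subgroup G} {w w' : V} {c c' : F} {x y : G}

theorem Co.mul (h : Hyp P e f) (a : Co T e f x w c) (b : Co T e f y w' c') :
    Co T e f (x * y) (w + w') (c + c' - P.ε * P.B w w') := by
  refine ⟨Subgroup.mul_mem _ a.q b.q, by simp [a.ew, b.ew], by simp [a.fw, b.fw], ?_⟩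
  rw [T.mul_apply, b.eq, map_add, map_add, map_smul, a.eq, a.q.1, T.QG_apply h a.q a.eq b.ew a.ew]
  module

theorem Co.inv (h : Hyp P e f) (a : Co T e f x w c) :
    Co T e f x⁻¹ (-w) (-c - P.ε * P.B w w) := by
  refine ⟨Subgroup.inv_mem _ a.q, by simp [a.ew], by simp [a.fw], T.inv_eq ?_⟩
  rw [map_add, map_add, map_smul, map_neg, a.eq, a.q.1, T.QG_apply h a.q a.eq a.ew a.ew]
  module

theorem Co.congr (a : Co T e f x w c) (h1 : w = w') (h2 : c = c') : Co T e f x w' c' :=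
  h1 ▸ h2 ▸ a

theorem Co.comm (h : Hyp P e f) (a : Co T e f x w c) (b : Co T e f y w' c') :
    Co T e f (x * (y * x⁻¹ * y⁻¹)) 0 (P.ε * P.B w' w - P.ε * P.B w w') := by
  refine (a.mul h ((b.mul h (a.inv h)).mul h (b.inv h))).congr (by abel) ?_
  simp only [map_add, map_neg, LinearMap.add_apply, LinearMap.neg_apply]
  ring

theorem Co.conj (a : Co T e f x w c) {g : G} (h1 : T.ρ g e = e) (h2 : T.ρ g f = f) :
    Co T e f (g * x * g⁻¹) (T.ρ g w) c := by
  refine ⟨h1 ▸ T.conj_mem_QG a.q g, by rw [← h1, T.isoB, a.ew], by rw [← h2, T.isoB, a.fw], ?_⟩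
  rw [T.mul_apply, T.mul_apply, T.inv_eq h2, a.eq, map_add, map_add, map_smul, h1, h2]

theorem Co.uniq (h : Hyp P e f) (a : Co T e f x w c) (b : Co T e f y w c) : x = y :=
  T.QG_ext h a.q b.q (a.eq.trans b.eq.symm)

theorem Co.lam (h : Hyp P e f) (a : Co T e f x 0 c) : P.ε * c ∈ P.Λ := by
  have := (h.sing_coord a.ew a.fw c).1 (a.eq ▸ T.sing x h.qf)
  simpa using P.Λ.sub_mem this P.q_zero

theorem exists_co (h : Hyp P e f) (hx : x ∈ T.QG e) : ∃ w c, Co T e f x w c := by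
  obtain ⟨w, c, h1, h2, h3⟩ := T.QG_coord h hx
  exact ⟨w, c, hx, h1, h2, h3⟩

variable (T) in
theorem co_total (h : Hyp P e f) (h1 : P.B e w = 0) (h2 : P.B f w = 0) :
    ∃ x c, Co T e f x w c := by
  obtain ⟨x, hx, e1, -⟩ := T.exists_QG h h1 h2 (h.sing_coord' h1 h2)
  exact ⟨x, _, hx, h1, h2, e1⟩

variable (T N e f) in
/-- the vector parts of the elements of `N` -/
def Vp (w : V) : Prop := ∃ x ∈ N, ∃ c, Co T e f x w c

theorem Vp.add (h : Hyp P e f) (a : Vp T e f N w) (b : Vp T e f N w') : Vp T e f N (w + w') := by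
  obtain ⟨x, hx, c, a⟩ := a
  obtain ⟨y, hy, d, b⟩ := b
  exact ⟨_, N.mul_mem hx hy, _, a.mul h b⟩

theorem vp_zero : Vp T e f N 0 := ⟨1, N.one_mem, 0, Subgroup.one_mem _, by simp, by simp, by simp⟩

variable [FiniteDimensional F V]

theorem exists_tv {z : V} (qz : P.q z ∈ P.Λ) (ez : P.B e z = 0) (fz : P.B f z = 0) {l : F}
    (hl : P.ε * l ∈ P.Λ) : ∃ g : G, T.ρ g e = e ∧ T.ρ g f = f ∧
      ∀ w, T.ρ g w = w + (l * P.B z w) • z := by
  by_cases z0 : z = 0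
  · exact ⟨1, by simp, by simp, by simp [z0]⟩
  obtain ⟨g, hg, h⟩ := T.exists_inT z0 qz hl
  exact ⟨g, hg e (P.eq_zero_symm ez), hg f (P.eq_zero_symm fz), h⟩

theorem Vp.tv (h : Hyp P e f) (hN : Closed U N) (hQ : T.QG e ≤ U) (a : Vp T e f N w) {z : V}
    (qz : P.q z ∈ P.Λ) (ez : P.B e z = 0) (fz : P.B f z = 0) {l : F} (hl : P.ε * l ∈ P.Λ) :
    Vp T e f N ((l * P.B z w) • z) := by
  obtain ⟨g, h1, h2, h3⟩ := exists_tv (T := T) qz ez fz hl
  obtain ⟨x, hx, c, a⟩ := a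
  have b := a.conj h1 h2
  exact ⟨_, N.mul_mem (hN.2 x hx g (hQ b.q)) (N.inv_mem hx), _,
    (b.mul h (a.inv h)).congr (by rw [h3]; abel) rfl⟩

theorem mem_span_perp {z : V} (ez : P.B e z = 0) (fz : P.B f z = 0) :
    ∀ x ∈ Submodule.span F {e, f}, P.B z x = 0 := fun x hx => by
  obtain ⟨a, b, rfl⟩ := Submodule.mem_span_pair.1 hx
  simp [P.eq_zero_symm ez, P.eq_zero_symm fz]

theorem vp_all (hΛ : P.Λ ≠ ⊥) (D : Fr P e f u v) (hN : Closed U N) (hQ : T.QG e ≤ U) {z : V}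
    (z0 : z ≠ 0) (qz : P.q z ∈ P.Λ) (ez : P.B e z = 0) (fz : P.B f z = 0)
    (hz : ∀ a : F, Vp T e f N (a • z)) (h1 : P.B e w = 0) (h2 : P.B f w = 0) : Vp T e f N w := by
  obtain ⟨l, l0, hl⟩ := exists_lam hΛ
  have nd : Nd P (Submodule.span F {e, f}) := by
    simpa using nd_bot.sup D.h (by simp) (by simp)
  refine D.h'.sing_induction (pp P e ⊓ pp P f) ⟨D.eu, D.fu⟩ ⟨D.ev, D.fv⟩ (p := Vp T e f N)
    (fun y hy qy => ?_) (fun _ _ _ _ a b => a.add D.h b) w ⟨h1, h2⟩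
  by_cases y0 : y = 0
  · rw [y0]; exact vp_zero
  have := nd.conn T.sep (Pr := fun z => ∀ a : F, Vp T e f N (a • z)) (fun a b _ qb _ hb hab ha s => by
    have hba : P.B b a ≠ 0 := fun e => hab (P.eq_zero_symm e)
    have := (ha (s / (l * P.B b a))).tv D.h hN hQ qb (P.eq_zero_symm (hb e (e_mem e f)))
      (P.eq_zero_symm (hb f (u_mem e f))) hl
    rwa [show l * P.B b ((s / (l * P.B b a)) • a) = s by
      rw [map_smul, smul_eq_mul]; field_simp] at this)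
    qz qy (mem_span_perp ez fz) (mem_span_perp hy.1 hy.2) z0 y0 hz 1
  rwa [one_smul] at this

theorem exists_W_eq (h : Hyp P e f) (hP : P.B.SeparatingLeft) (w0 : w ≠ 0) (h1 : P.B e w = 0)
    (h2 : P.B f w = 0) (a : F) : ∃ z, P.B e z = 0 ∧ P.B f z = 0 ∧ P.B w z = a := by
  obtain ⟨y, hy⟩ : ∃ y, P.B w y ≠ 0 := by
    by_contra hc
    push Not at hc
    exact w0 (hP w hc)
  obtain ⟨z, e1, e2, e3⟩ := h.decomp y
  have hz : P.B w z ≠ 0 := by
    rw [e3] at hy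
    simpa [P.eq_zero_symm h1, P.eq_zero_symm h2] using hy
  exact ⟨(a / P.B w z) • z, by simp [e1], by simp [e2], by simp [hz]⟩

variable {p : ℕ} [Fact p.Prime] [CharP F p] [Finite G] [Finite V]

theorem vp_of_tr (hΛ : P.Λ ≠ ⊥) (D : Fr P e f u v) (hN : Closed U N) (hU : D.R2 T ≤ U)
    (hx : x ∈ N) (ht : T.Tr x e) (h1 : P.B e w = 0) (h2 : P.B f w = 0) : Vp T e f N w := by
  have hQ := (D.QG_le T).trans hU
  obtain ⟨a, ha, a1⟩ := D.exists_A T (-1)
  obtain ⟨b, -, b1⟩ := D.swap.exists_A T 1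
  obtain ⟨b', hb', -⟩ := D.swap.exists_A T 1
  obtain ⟨b, hb, b1⟩ := D.swap.exists_A T 1
  have e1 : T.ρ (a * b) e = u := by
    rw [T.mul_apply, b1, map_add, map_smul, a1, ha.1]; module
  have t := ht.conj (a * b)
  rw [e1] at t
  have tN := hN.2 x hx (a * b) (hU (D.mem_RL_swap T (D.swap.mem_RL_of_QG T (t.inT.mem_QG t.q)
    (t.inT e D.swap.eu))).1)
  generalize a * b * x * (a * b)⁻¹ = t' at t tN
  obtain ⟨c, c0, -, hc⟩ := t.coord
  refine vp_all hΛ D hN hQ D.h'.e_ne D.h'.qe D.eu D.fu (fun s => ?_) h1 h2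
  obtain ⟨y, d, hy⟩ := co_total T D.h (w := (s / c) • v) (by simp [D.ev]) (by simp [D.fv])
  have := (hy.conj (t.inT e D.swap.eu) (t.inT f D.swap.ev)).mul D.h (hy.inv D.h)
  refine ⟨_, ?_, _, this.congr ?_ rfl⟩
  · have := N.mul_mem tN (hN.2 _ (N.inv_mem tN) y (U.mul_mem (U.mul_mem (hQ hy.q)
      (U.inv_mem (hN.1 tN))) (U.inv_mem (hQ hy.q))))
    simpa [mul_assoc] using this
  · rw [hc, map_smul, D.h'.ef, smul_eq_mul, mul_one, mul_div_cancel₀ _ c0]; abel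

theorem tr_of_co (h : Hyp P e f) (a : Co T e f x 0 c) (h1 : x ≠ 1) : T.Tr x e :=
  ⟨h1, h.e_ne, h.qe, T.inT_of_coord (c := c) h a.q (by simpa using a.eq)⟩

theorem QG_le_of (h : Hyp P e f) (h1 : ∀ w, P.B e w = 0 → P.B f w = 0 → Vp T e f N w)
    (h2 : ∀ x c, Co T e f x 0 c → x ∈ N) : T.QG e ≤ N := by
  intro x hx
  obtain ⟨w, c, a⟩ := exists_co h hx
  obtain ⟨y, hy, d, b⟩ := h1 w a.ew a.fw
  exact (N.mul_mem_cancel_left (N.inv_mem hy)).1
    (h2 _ _ (((b.inv h).mul h a).congr (neg_add_cancel w) rfl))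

theorem Fr.sc (hmax : ∀ v, P.B v v = 0 → P.q v ∈ P.Λ) (hΛ : P.Λ ≠ ⊥) (D : Fr P e f u v)
    (hcase : (∀ l ∈ P.Λ, ∃ b, l = b - P.ε * σ b) ∨ (P.Λ = ⊤ ∧ (∀ a : F, IsSquare a) ∧
      ∃ w, P.B e w = 0 ∧ P.B f w = 0 ∧ P.B u w = 0 ∧ w ≠ 0 ∧ u + w ≠ 0))
    {U : Sylow p G} (hU : D.R2 T ≤ U) : SC (U : Subgroup G) := by
  refine sc_of_central U.isPGroup' fun N hN z hz z1 zp zc => ?_
  have hQ := (D.QG_le T).trans hU
  have zc' : ∀ x ∈ T.QG e, Commute z x := fun x hx => (zc x (hQ hx)).symm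
  have zQ := T.mem_QG_of_cent (p := p) D.h.e_ne D.h.qe ⟨1, by simpa using zp⟩ zc'
  refine hN.le_of_QG T hmax hΛ D.h.e_ne D.h.qe ?_
  rcases hcase with hc | ⟨hT, hsq, w₁, w1, w2, w3, w4, w5⟩
  · have ha : ∃ a, a ≠ P.ε * σ a := by
      by_contra h
      push Not at h
      refine hΛ (eq_bot_iff.2 fun l hl => ?_)
      obtain ⟨b, rfl⟩ := hc l hl
      rw [← h b, sub_self]; exact AddSubgroup.zero_mem _
    have hv : ∀ w, P.B e w = 0 → P.B f w = 0 → Vp T e f N w := fun w =>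
      vp_of_tr hΛ D hN hU hz ⟨z1, D.h.e_ne, D.h.qe, T.inT_of_cent ha D.h.e_ne D.h.qe zQ zc'⟩
    refine QG_le_of D.h hv fun x c a => ?_
    obtain ⟨b, hb⟩ := hc _ (a.lam D.h)
    obtain ⟨y, hy, d, ay⟩ := hv v D.ev D.fv
    obtain ⟨y', d', ay'⟩ := co_total T D.h (w := σ b • u) (by simp [D.eu]) (by simp [D.fu])
    rw [a.uniq D.h ((ay.comm D.h ay').congr rfl ?_)]
    · exact N.mul_mem hy (hN.2 _ (N.inv_mem hy) y' (hQ (Subgroup.mul_mem _ (Subgroup.mul_mem _ ay'.q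
        (Subgroup.inv_mem _ ay.q)) (Subgroup.inv_mem _ ay'.q))))
    · simp only [LinearMap.map_smulₛₗ, LinearMap.smul_apply, map_smul, smul_eq_mul, P.σσ, D.h'.ef,
        D.h'.fe]
      linear_combination -P.ε * hb + c * P.εε
  · have hall : ∀ l, l ∈ P.Λ := fun l => hT ▸ trivial
    have hε : P.ε = -1 := by
      have := P.tr_mem 1 (hall 1)
      rw [map_one] at this
      linear_combination this
    have hσ : ∀ a, σ a = a := fun a => by
      have := P.tr_mem a (hall a)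
      rw [hε] at this
      linear_combination -this
    have hv : ∀ w, P.B e w = 0 → P.B f w = 0 → Vp T e f N w := fun w h1 h2 => by
      obtain ⟨w₀, c, a⟩ := exists_co D.h zQ
      by_cases h0 : w₀ = 0
      · exact vp_of_tr hΛ D hN hU hz (tr_of_co D.h (h0 ▸ a) z1) h1 h2
      obtain ⟨y, e1, e2, e3⟩ := exists_W_eq D.h T.sep h0 a.ew a.fw P.ε
      have e4 : P.B y w₀ = 1 := by rw [P.symm, e3, P.σε, P.εε]
      refine vp_all hΛ D hN hQ (fun e => by simp [e] at e4) (hall _) e1 e2 (fun s => ?_) h1 h2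
      simpa [e4] using Vp.tv D.h hN hQ ⟨z, hz, c, a⟩ (hall _) e1 e2 (hall (P.ε * s))
    obtain ⟨x, hx, c, c0, a⟩ : ∃ x ∈ N, ∃ c, c ≠ 0 ∧ Co T e f x 0 c := by
      by_contra hc
      have uq : ∀ {x y w c d}, x ∈ N → y ∈ N → Co T e f x w c → Co T e f y w d → c = d := by
        intro x y w c d hx hy a b
        by_contra hne
        refine hc ⟨_, N.mul_mem hx (N.inv_mem hy), _,  ?_,
          (a.mul D.h (b.inv D.h)).congr (add_neg_cancel w) rfl⟩
        intro h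
        apply hne
        simp only [map_neg] at h
        linear_combination h
      have one : ∀ {x y d}, x ∈ N → y ≠ 0 → Co T e f x y d → d = 1 := by
        intro x y d hx y0 a
        obtain ⟨w, e1, e2, e3⟩ := exists_W_eq D.h T.sep y0 a.ew a.fw 1
        obtain ⟨x', hx', c, b⟩ := hv w e1 e2
        obtain ⟨g, h1, h2, h3⟩ := exists_tv (T := T) (hall (P.q y)) a.ew a.fw (hall (P.ε * 1))
        have b' := b.conj h1 h2
        have := uq (hN.2 _ hx' g (hQ b'.q)) (N.mul_mem hx' hx) (b'.congr (by simp [h3, e3]) rfl)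
          (b.mul D.h a)
        rw [P.symm, e3, map_one, hε] at this
        linear_combination -this
      obtain ⟨x, hx, c, a⟩ := hv u D.eu D.fu
      obtain ⟨y, hy, d, b⟩ := hv w₁ w1 w2
      have h1 := one hx D.h'.e_ne a
      have h2 := one hy w4 b
      have h3 := one (N.mul_mem hx hy) w5 (a.mul D.h b)
      rw [h1, h2, w3] at h3
      exact one_ne_zero (α := F) (by linear_combination h3)
    refine QG_le_of D.h hv fun y d b => ?_
    obtain ⟨l, hl⟩ := hsq (d / c)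
    by_cases l0 : l = 0
    · have : d = 0 := by simpa [l0, c0] using hl
      rw [b.uniq D.h (y := 1) ⟨Subgroup.one_mem _, by simp, by simp, by simp [this]⟩]
      exact N.one_mem
    obtain ⟨g, -, g1, -⟩ := D.exists_h (p := p) T l0
    have t : T.InT x e := T.inT_of_coord (c := c) D.h a.q (by simpa using a.eq)
    have t1 := (t.conj g).smul (inv_ne_zero l0)
    rw [g1, smul_smul, inv_mul_cancel₀ l0, one_smul] at t1
    have q := t1.mem_QG D.h.qe
    rw [b.uniq D.h (y := g * x * g⁻¹) ⟨q, by simp, by simp, ?_⟩]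
    · exact hN.2 x hx g (hQ q)
    obtain ⟨c', -, hc'⟩ := t.coord D.h
    have e1 : c' = c := by
      have := hc' f
      rw [a.eq, D.h.ef, mul_one, add_zero, add_right_inj] at this
      exact (smul_left_injective F D.h.e_ne this).symm
    rw [T.mul_apply, T.mul_apply, hc', map_add, map_smul, T.apply_inv, ← T.B_left, g1, e1]
    simp only [LinearMap.map_smulₛₗ, LinearMap.smul_apply, hσ, D.h.ef, smul_eq_mul, smul_smul]
    rw [(div_eq_iff c0).1 hl]
    module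

theorem Fr.crit (hmax : ∀ v, P.B v v = 0 → P.q v ∈ P.Λ) (hΛ : P.Λ ≠ ⊥) (D : Fr P e f u v)
    (hcase : (∀ l ∈ P.Λ, ∃ b, l = b - P.ε * σ b) ∨ (P.Λ = ⊤ ∧ (∀ a : F, IsSquare a) ∧
      ∃ w, P.B e w = 0 ∧ P.B f w = 0 ∧ P.B u w = 0 ∧ w ≠ 0 ∧ u + w ≠ 0))
    (T : Setup P G) (hgen : ∀ g, T.ρ g e = e → T.ρ g f = f →
      g ∈ Subgroup.closure {y | T.ρ y e = e ∧ Uni p y}) :
    ∃ U : Sylow p G, Crit p (U : Subgroup G) := by
  obtain ⟨U, hU⟩ := (D.isPGroup (p := p) T).exists_le_sylow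
  refine ⟨U, fun h => ?_, D.sc hmax hΛ hcase hU, D.top T hΛ U.isPGroup' hU hgen⟩
  obtain ⟨x, hx⟩ := T.exists_tr hΛ D.h.e_ne D.h.qe
  have := hU (D.QG_le T (hx.inT.mem_QG hx.q))
  rw [h] at this
  exact hx.ne this

theorem eqns_FusPolar3 : True := by
  have := @Vp.eq_1.{0, 0, 0}
  trivial

end H55.Fus
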