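import Cfsg.Agent.Lib.Spor55.FusQuot
import Cfsg.Agent.Lib.GL.Simple
import Cfsg.Agent.Lib.GL.Two
import Cfsg.Agent.Lib.ClGeo.Transv
import Cfsg.Agent.Lib.AutCl.PSLTv

/-!
The unitriangular group of `SL_n`: generation, normaliser, and the fusion criterion.
-/

set_option autoImplicit false
set_option linter.unusedSimpArgs false
open Matrix hiding transvection
open Matrix.SpecialLinearGroup

namespace H55.Fus

variable {ι F : Type*} [Fintype ι] [DecidableEq ι] [Field F]

/-- matrices which differ from the identity in the row `a` only -/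
def rowG (F : Type*) [Field F] (a : ι) : Subgroup (SpecialLinearGroup ι F) where
  carrier := {g | ∀ v : ι → F, v a = 0 → v ᵥ* g.1 = v}
  one_mem' := fun v _ => by simp
  mul_mem' := fun {x y} hx hy v hv => by
    rw [coe_mul, ← vecMul_vecMul, hx v hv, hy v hv]
  inv_mem' := fun {x} hx v hv => by
    conv_lhs => rw [← hx v hv]
    rw [vecMul_vecMul, ← coe_mul, mul_inv_cancel]; simp

/-- matrices which differ from the identity in the column `a` only -/
def colG (F : Type*) [Field F] (a : ι) : Subgroup (SpecialLinearGroup ι F) where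
  carrier := {g | ∀ v : ι → F, v a = 0 → g.1 *ᵥ v = v}
  one_mem' := fun v _ => by simp
  mul_mem' := fun {x y} hx hy v hv => by
    rw [coe_mul, ← mulVec_mulVec, hy v hv, hx v hv]
  inv_mem' := fun {x} hx v hv => by
    conv_lhs => rw [← hx v hv]
    rw [mulVec_mulVec, ← coe_mul, inv_mul_cancel]; simp

theorem mem_rowG {a : ι} {g : SpecialLinearGroup ι F} :
    g ∈ rowG F a ↔ ∀ i j, i ≠ a → g.1 i j = (1 : Matrix ι ι F) i j := by
  refine ⟨fun h i j hi => ?_, fun h v hv => funext fun j => ?_⟩
  · have := congrFun (h (Pi.single i 1) (Pi.single_eq_of_ne hi.symm _)) j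
    simpa [one_apply, Pi.single_apply, eq_comm] using this
  · conv_rhs => rw [← vecMul_one v]
    refine Finset.sum_congr rfl fun i _ => ?_
    by_cases hi : i = a
    · simp [hi, hv]
    · simp [h i j hi]

theorem mem_colG {a : ι} {g : SpecialLinearGroup ι F} :
    g ∈ colG F a ↔ ∀ i j, j ≠ a → g.1 i j = (1 : Matrix ι ι F) i j := by
  refine ⟨fun h i j hi => ?_, fun h v hv => funext fun i => ?_⟩
  · have := congrFun (h (Pi.single j 1) (Pi.single_eq_of_ne hi.symm _)) i
    simpa [one_apply, Pi.single_apply, eq_comm] using this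
  · conv_rhs => rw [← one_mulVec v]
    refine Finset.sum_congr rfl fun j _ => ?_
    by_cases hj : j = a
    · simp [hj, hv]
    · simp [h i j hj]

theorem tv_mem_rowG {a j : ι} (h : a ≠ j) (c : F) : transvection h c ∈ rowG F a :=
  mem_rowG.2 fun i k hi => by simp [transvection_coe, single_apply, hi.symm]

theorem tv_mem_colG {a j : ι} (h : j ≠ a) (c : F) : transvection h c ∈ colG F a :=
  mem_colG.2 fun i k hi => by simp [transvection_coe, single_apply, hi.symm]

theorem tv_conj_rowG {a i j : ι} (h : i ≠ j) (hj : j ≠ a) (c : F) :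
    ∀ x ∈ rowG F a, transvection h c * x * (transvection h c)⁻¹ ∈ rowG F a := by
  intro x hx v hv
  rw [coe_mul, coe_mul, ← vecMul_vecMul, ← vecMul_vecMul, hx, vecMul_vecMul, ← coe_mul,
    mul_inv_cancel]
  · simp
  · rw [transvection_coe, vecMul_add, vecMul_one]
    simp [hv, vecMul, dotProduct, single_apply, hj]

theorem tv_conj_colG {a i j : ι} (h : i ≠ j) (hi : i ≠ a) (c : F) :
    ∀ x ∈ colG F a, transvection h c * x * (transvection h c)⁻¹ ∈ colG F a := by
  intro x hx v hv
  rw [coe_mul, coe_mul, ← mulVec_mulVec, ← mulVec_mulVec, hx, mulVec_mulVec, ← coe_mul,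
    mul_inv_cancel]
  · simp
  · rw [transvection_inv, transvection_coe, add_mulVec, one_mulVec]
    simp [hv, mulVec, dotProduct, single_apply, hi]

variable {p : ℕ} [Fact p.Prime] [CharP F p]

theorem tv_pow {i j : ι} (h : i ≠ j) (c : F) : ∃ k : ℕ, transvection h c ^ p ^ k = 1 := by
  refine H67.Tf.uni (v := Pi.single i c) (φ := Pi.single j 1) ⟨by simp [h.symm], fun u => ?_⟩
  ext k
  simp [transvection_coe, add_mulVec, single_mulVec, Pi.single_apply, Function.update_apply,
    mul_comm]

theorem pc_rowG (a : ι) : PC p (rowG F a) := by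
  intro y hy hp
  have h : ∀ b, a ≠ b → ∀ i k, (if b = k then y.1 i a else 0) = if a = i then y.1 b k else 0 := by
    intro b hb i k
    have := congrArg Subtype.val (hy _ (tv_mem_rowG hb 1))
    rw [coe_mul, coe_mul, transvection_coe, mul_add, add_mul, mul_one, one_mul, add_right_inj] at this
    simpa [mul_apply, single_apply, ite_and] using congrFun (congrFun this i) k
  refine mem_rowG.2 fun i j hi => ?_
  have h1 : y.1 a a = 1 := H67.Uni.eigen_bot (H67.slRep ι F) hp (u := Pi.single a 1) (by simp) (by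
    ext k
    by_cases hk : a = k
    · subst hk; simp [H67.slRep]
    · simpa [H67.slRep, hk, Ne.symm hk] using h i hi.symm k i)
  have := h i hi.symm a j
  simp only [if_true, h1] at this
  rw [← this, one_apply]

theorem pc_colG (a : ι) : PC p (colG F a) := by
  intro y hy hp
  have h : ∀ b, b ≠ a → ∀ i k, (if a = k then y.1 i b else 0) = if b = i then y.1 a k else 0 := by
    intro b hb i k
    have := congrArg Subtype.val (hy _ (tv_mem_colG hb 1))
    rw [coe_mul, coe_mul, transvection_coe, mul_add, add_mul, mul_one, one_mul, add_right_inj] at this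
    simpa [mul_apply, single_apply, ite_and] using congrFun (congrFun this i) k
  refine mem_colG.2 fun i j hj => ?_
  have h2 := h j hj
  have h1 : y.1 j j = 1 := H67.Uni.eigen_bot (H67.slRep ι F) hp (u := Pi.single j 1) (by simp) (by
    ext k
    by_cases hk : j = k
    · subst hk; simp [H67.slRep]
    · simpa [H67.slRep, hk, Ne.symm hk] using h2 k a)
  by_cases hi : j = i
  · subst hi; simp [h1]
  · simpa [hi, one_apply, Ne.symm hi] using h2 i a

section order
variable [LinearOrder ι]
open H10

theorem tv_mem_unitri {i j : ι} (h : i < j) (c : F) : transvection h.ne c ∈ unitriSL ι F :=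
  mem_unitriSL.2 ⟨fun k l hkl => by
    have : ¬ (i = k ∧ j = l) := fun ⟨a, b⟩ => by subst a b; exact absurd h hkl.not_gt
    simp [transvection_coe, single_apply, this, one_apply, hkl.ne'], fun k => by
    have : ¬ (i = k ∧ j = k) := fun ⟨a, b⟩ => h.ne (a.trans b.symm)
    simp [transvection_coe, single_apply, this]⟩

theorem diag_eq_one {g : SpecialLinearGroup ι F} (hg : ∀ i j, j < i → g.1 i j = 0) {a : ι}
    (h : ∀ i, i ≠ a → g.1 i i = 1) (i : ι) : g.1 i i = 1 := by
  by_cases hi : i = a
  · have h1 := g.2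
    rw [det_of_isUpperTriangular (M := g.1) (fun _ _ hij => hg _ _ hij),
      Finset.prod_eq_single a (fun b _ hb => h b hb) (by simp)] at h1
    rw [hi, h1]
  · exact h i hi

theorem rowG_le {a : ι} (ha : ∀ i, a ≤ i) : rowG F a ≤ unitriSL ι F := fun g hg => by
  have h : ∀ i j, j < i → g.1 i j = 0 := fun i j hij => by
    rw [mem_rowG.1 hg i j (lt_of_le_of_lt (ha j) hij).ne', one_apply_ne hij.ne']
  exact mem_unitriSL.2 ⟨h, diag_eq_one h (a := a) fun i hi => by simp [mem_rowG.1 hg i i hi]⟩

theorem colG_le {a : ι} (ha : ∀ i, i ≤ a) : colG F a ≤ unitriSL ι F := fun g hg => by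
  have h : ∀ i j, j < i → g.1 i j = 0 := fun i j hij => by
    rw [mem_colG.1 hg i j (lt_of_lt_of_le hij (ha i)).ne, one_apply_ne hij.ne']
  exact mem_unitriSL.2 ⟨h, diag_eq_one h (a := a) fun i hi => by simp [mem_colG.1 hg i i hi]⟩

/-- the unitriangular group is generated by its elementary transvections -/
theorem unitri_le {T : Subgroup (SpecialLinearGroup ι F)}
    (hT : ∀ i j (h : i < j) c, transvection h.ne c ∈ T) : unitriSL ι F ≤ T := by
  classical
  intro u hu
  induction hk : (Finset.univ.filter fun q : ι × ι => q.1 < q.2 ∧ u.1 q.1 q.2 ≠ 0).card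
    using Nat.strong_induction_on generalizing u with
  | _ k ih =>
  obtain ⟨h1, h2⟩ := mem_unitriSL.1 hu
  by_cases h0 : (Finset.univ.filter fun q : ι × ι => q.1 < q.2 ∧ u.1 q.1 q.2 ≠ 0).Nonempty
  · obtain ⟨⟨i, j⟩, hq, hmax⟩ := Finset.exists_max_image _ (fun q : ι × ι => q.2) h0
    simp only [Finset.mem_filter, Finset.mem_univ, true_and] at hq hmax
    have hrow : ∀ l, u.1 j l = if j = l then 1 else 0 := fun l => by
      rcases lt_trichotomy j l with h | rfl | h
      · rw [if_neg h.ne]
        by_contra hc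
        exact absurd (hmax (j, l) ⟨h, hc⟩) h.not_ge
      · simp [h2]
      · rw [if_neg h.ne', h1 _ _ h]
    have hent : ∀ a b, (transvection hq.1.ne (-u.1 i j) * u).1 a b =
        if i = a ∧ j = b then 0 else u.1 a b := fun a b => by
      by_cases ha : i = a
      · subst ha
        by_cases hb : j = b
        · subst hb; simp [transvection_coe, add_mul, hrow]
        · simp [transvection_coe, add_mul, hrow, hb]
      · simp [transvection_coe, add_mul, ha, Ne.symm ha]
    have := ih _ ?_ ((unitriSL ι F).mul_mem (tv_mem_unitri hq.1 (-u.1 i j)) hu) rfl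
    · exact (T.mul_mem_cancel_left (hT i j hq.1 _)).1 this
    · rw [← hk]
      refine Finset.card_lt_card ⟨fun q hq' => ?_, fun hs => ?_⟩
      · simp only [Finset.mem_filter, Finset.mem_univ, true_and, hent] at hq' ⊢
        exact ⟨hq'.1, fun e => hq'.2 (by simp [e])⟩
      · have := hs (Finset.mem_filter.2 ⟨Finset.mem_univ (i, j), hq⟩)
        simp [hent] at this
  · have : u = 1 := by
      ext i j
      rcases lt_trichotomy i j with h | rfl | h
      · rw [coe_one, one_apply_ne h.ne]
        by_contra hc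
        exact h0 ⟨(i, j), Finset.mem_filter.2 ⟨Finset.mem_univ _, h, hc⟩⟩
      · simpa using h2 i
      · rw [coe_one, one_apply_ne h.ne']; exact h1 _ _ h
    rw [this]; exact T.one_mem

/-- the normaliser of the unitriangular group is triangular -/
theorem mem_borel_of_conj {g : SpecialLinearGroup ι F}
    (hg : ∀ x ∈ unitriSL ι F, g * x * g⁻¹ ∈ unitriSL ι F) : g ∈ borelSL ι F := by
  classical
  have h1 : ∀ a b, a < b → ∀ i k, k ≤ i → g.1 i a * (g⁻¹).1 b k = 0 := by
    intro a b hab i k hk
    obtain ⟨e1, e2⟩ := mem_unitriSL.1 (hg _ (tv_mem_unitri hab 1))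
    have e : (g * transvection hab.ne 1 * g⁻¹).1 i k =
        (1 : Matrix ι ι F) i k + g.1 i a * (g⁻¹).1 b k := by
      rw [coe_mul, coe_mul, transvection_coe, mul_add, add_mul, mul_one, ← coe_mul, mul_inv_cancel,
        Matrix.add_apply, coe_one]
      simp [mul_apply, single_apply, ite_and]
    rcases hk.eq_or_lt with rfl | hk
    · simpa [e2] using e
    · simpa [e1 _ _ hk, one_apply_ne hk.ne'] using e.symm
  have h2 : ∀ a, ∃ k, (g⁻¹).1 a k ≠ 0 ∧ g.1 k a ≠ 0 := fun a => by
    by_contra hc
    have : ((g⁻¹).1 * g.1) a a = 1 := by rw [← coe_mul, inv_mul_cancel]; simp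
    rw [mul_apply, Finset.sum_eq_zero fun k _ => by
      by_contra h
      exact hc ⟨k, mul_ne_zero_iff.1 h⟩] at this
    exact zero_ne_one this
  have h3 : ∀ a, ∃ i, g.1 i a ≠ 0 ∧ ∀ k, g.1 k a ≠ 0 → k ≤ i := fun a => by
    obtain ⟨k, -, hk⟩ := h2 a
    obtain ⟨i, hi, hm⟩ := Finset.exists_max_image (Finset.univ.filter fun i => g.1 i a ≠ 0) id
      ⟨k, by simpa using hk⟩
    exact ⟨i, by simpa using hi, fun k hk => hm k (by simpa using hk)⟩
  choose m hm1 hm2 using h3
  have hmono : StrictMono m := fun a b hab => by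
    obtain ⟨k, k1, k2⟩ := h2 b
    refine lt_of_lt_of_le (lt_of_not_ge fun h => ?_) (hm2 b k k2)
    exact mul_ne_zero (hm1 a) k1 (h1 a b hab _ _ h)
  refine mem_borelSL.2 fun i j hij => ?_
  by_contra hc
  exact absurd ((hm2 j i hc).trans hmono.apply_le) hij.not_ge

theorem diag2n_mem_borel {i j : ι} (h : i ≠ j) (c : F) (hc : c ≠ 0) :
    diag2n h c hc ∈ borelSL ι F :=
  mem_borelSL.2 fun k l hkl => by rw [diag2n_coe, diagonal_apply_ne _ hkl.ne']

theorem borel_le {Γ : Subgroup (SpecialLinearGroup ι F)} (hU : unitriSL ι F ≤ Γ) (i₀ : ι)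
    (hd : ∀ i (h : i ≠ i₀) c hc, diag2n h c hc ∈ Γ) : borelSL ι F ≤ Γ := by
  intro g hg
  have h0 := mem_borelSL.1 hg
  have hD : det (diagonal fun i => g.1 i i) = 1 := by
    rw [det_diagonal, ← det_of_isUpperTriangular (M := g.1) (fun _ _ hij => h0 _ _ hij), g.2]
  obtain ⟨d, hd'⟩ : ∃ d : SpecialLinearGroup ι F, d = ⟨_, hD⟩ := ⟨_, rfl⟩
  have h1 : d ∈ Γ := by
    rw [hd', diag_eq_diag2n_prod i₀]
    refine Subgroup.noncommProd_mem (G := SpecialLinearGroup ι F) Γ _ fun i hi => ?_
    rw [dif_pos (Finset.mem_filter.1 hi).2]; exact hd _ _ _ _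
  have h2 : d ∈ borelSL ι F :=
    mem_borelSL.2 fun k l hkl => by rw [hd']; exact diagonal_apply_ne _ hkl.ne'
  have h3 := mem_borelSL.1 ((borelSL ι F).mul_mem ((borelSL ι F).inv_mem h2) hg)
  refine (Γ.mul_mem_cancel_left (Γ.inv_mem h1)).1 (hU (mem_unitriSL.2 ⟨h3, fun i => ?_⟩))
  have e : g = d * (d⁻¹ * g) := by group
  have e2 := congrFun (congrFun (congrArg Subtype.val e) i) i
  rw [coe_mul, show d.1 = diagonal _ from congrArg Subtype.val hd', diagonal_mul] at e2
  exact (mul_eq_left₀ (diagonal_neZero _ hD i)).1 e2.symm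

end order

theorem crit_SL [Finite F] (n : ℕ) :
    Crit p (H10.unitriSL (Fin (n + 3)) F) := by
  have h0l : (0 : Fin (n + 3)) < Fin.last _ := Fin.last_pos
  have hr := rowG_le (F := F) (a := (0 : Fin (n + 3))) Fin.zero_le
  have hc := colG_le (F := F) (a := Fin.last (n + 2)) Fin.le_last
  have htv : ∀ {i j : Fin (n + 3)} (h : i ≠ j) {c : F}, c ≠ 0 →
      Cfsg.IsTransvection (transvection h c).1 := fun {i j} h {c} hc =>
    H30.isTransvection_iff.2 ⟨Pi.single i c, Pi.single j 1, by simpa using hc, by simp,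
      by simp [h.symm], by
        rw [transvection_coe]; congr 1; ext a b
        by_cases h1 : i = a <;> by_cases h2 : j = b <;>
          simp [vecMulVec, Pi.single_apply, single_apply, h1, h2, eq_comm]⟩
  refine ⟨fun h => ?_, sc_of_central (H10.isPGroup_unitriSL p) fun T hT y hy y1 yp yc => ?_,
    fun M hM g hg => ?_⟩
  · have := tv_mem_unitri h0l (1 : F)
    rw [h, Subgroup.mem_bot] at this
    have := congrFun (congrFun (congrArg Subtype.val this) 0) (Fin.last _)
    simp [transvection_coe, one_apply_ne h0l.ne] at this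
  · have e1 := mem_rowG.1 (pc_rowG (p := p) 0 y (fun x hx => (yc x (hr hx)).symm) ⟨1, by simpa⟩)
    have e2 := mem_colG.1
      (pc_colG (p := p) (Fin.last _) y (fun x hx => (yc x (hc hx)).symm) ⟨1, by simpa⟩)
    have e : y = transvection h0l.ne (y.1 0 (Fin.last _)) := by
      ext i j
      by_cases hi : i = 0
      · by_cases hj : j = Fin.last _
        · subst hi hj; simp [transvection_coe, one_apply_ne h0l.ne]
        · simp [transvection_coe, e2 i j hj, single_apply, Ne.symm hj]
      · simp [transvection_coe, e1 i j hi, single_apply, Ne.symm hi]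
    have hy0 : y.1 0 (Fin.last _) ≠ 0 := fun h => y1 (by rw [e, h, transvection_coeff_zero])
    refine unitri_le fun i j h c => ?_
    by_cases hc0 : c = 0
    · rw [hc0, transvection_coeff_zero]; exact T.one_mem
    · exact hT.of_isConj hy (tv_mem_unitri h c) (H30.isConj_of_isTransvection (by simp) _ _
        (e ▸ htv _ hy0) (htv _ hc0))
  · refine (borel_le hM.le_sub 1 (fun i h c hc0 => ?_) (mem_borel_of_conj hg)).2
    have hn := (Subgroup.mem_normalizer_iff.1
      (H10.borelSL_le_normalizer_unitriSL (diag2n_mem_borel h c hc0)))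
    by_cases hi : i = 0
    · refine hM.mem_sub_of_opp hc (pc_colG _) ?_ fun x hx => (hn x).1 hx
      have a1 : ∀ d : F, transvection h d ∈ Opp p (colG F (Fin.last (n + 2))) := fun d =>
        mem_opp (tv_conj_colG h (hi ▸ h0l.ne) d) (tv_pow h d)
      have a2 : ∀ d : F, transvection h.symm d ∈ Opp p (colG F (Fin.last (n + 2))) := fun d =>
        mem_opp (tv_conj_colG h.symm (by simp [Fin.ext_iff]) d) (tv_pow h.symm d)
      rw [H10.diag2n_decompose]
      exact mul_mem (mul_mem (mul_mem (mul_mem (mul_mem (a1 _) (a2 _)) (a1 _)) (a1 _)) (a2 _)) (a1 _)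
    · refine hM.mem_sub_of_opp hr (pc_rowG _) ?_ fun x hx => (hn x).1 hx
      have a1 : ∀ d : F, transvection h d ∈ Opp p (rowG F (0 : Fin (n + 3))) := fun d =>
        mem_opp (tv_conj_rowG h (by simp) d) (tv_pow h d)
      have a2 : ∀ d : F, transvection h.symm d ∈ Opp p (rowG F (0 : Fin (n + 3))) := fun d =>
        mem_opp (tv_conj_rowG h.symm hi d) (tv_pow h.symm d)
      rw [H10.diag2n_decompose]
      exact mul_mem (mul_mem (mul_mem (mul_mem (mul_mem (a1 _) (a2 _)) (a1 _)) (a1 _)) (a2 _)) (a1 _)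

theorem eqns_FusSL : True := by
  have := @rowG.eq_1.{0, 0}
  have := @colG.eq_1.{0, 0}
  trivial

end H55.Fus
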