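import Cfsg.Agent.Base

set_option autoImplicit false
open Cfsg

namespace H55.Hexa

/-- Model of the field with four elements: `(i, j)` stands for `i + j ω`. -/
abbrev G4 : Type := ZMod 2 × ZMod 2

/-- multiplication in the model -/
def mul (a b : G4) : G4 := (a.1 * b.1 + a.2 * b.2, a.1 * b.2 + a.2 * b.1 + a.2 * b.2)

/-- the model element `ω` -/
def w : G4 := (0, 1)
/-- the model element `ω²` -/
def w2 : G4 := (1, 1)

section
variable {F : Type*} [Field F] (ω : F)

/-- the element of `F` named by a model element -/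
def phi (a : G4) : F := (a.1.val : F) + (a.2.val : F) * ω

theorem g4_cases (a : G4) : a = (0, 0) ∨ a = (1, 0) ∨ a = (0, 1) ∨ a = (1, 1) := by
  revert a; decide

theorem phi00 : phi ω (0, 0) = 0 := by
  show (((0 : ZMod 2).val : ℕ) : F) + (((0 : ZMod 2).val : ℕ) : F) * ω = 0
  simp
theorem phi10 : phi ω (1, 0) = 1 := by
  show ((1 : ℕ) : F) + ((0 : ℕ) : F) * ω = 1
  simp
theorem phi01 : phi ω (0, 1) = ω := by
  show ((0 : ℕ) : F) + ((1 : ℕ) : F) * ω = ω
  simp
theorem phi11 : phi ω (1, 1) = 1 + ω := by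
  show ((1 : ℕ) : F) + ((1 : ℕ) : F) * ω = 1 + ω
  simp

variable {ω}

theorem two_eq_zero [Fintype F] (hF : Fintype.card F = 4) : (2 : F) = 0 := by
  have h : ((4 : ℕ) : F) = 0 := by rw [← hF]; exact Nat.cast_card_eq_zero F
  have : (2 : F) * 2 = 0 := by rw [← h]; norm_num
  simpa using this

theorem phi_add (h2 : (2 : F) = 0) (a b : G4) : phi ω (a + b) = phi ω a + phi ω b := by
  rcases g4_cases a with rfl | rfl | rfl | rfl <;> rcases g4_cases b with rfl | rfl | rfl | rfl
  all_goals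
    first
      | (show phi ω (0, 0) = _; simp only [phi00, phi10, phi01, phi11] <;> grind)
      | (show phi ω (1, 0) = _; simp only [phi00, phi10, phi01, phi11] <;> grind)
      | (show phi ω (0, 1) = _; simp only [phi00, phi10, phi01, phi11] <;> grind)
      | (show phi ω (1, 1) = _; simp only [phi00, phi10, phi01, phi11] <;> grind)

theorem phi_mul (h2 : (2 : F) = 0) (hω : ω ^ 2 + ω + 1 = 0) (a b : G4) :
    phi ω (mul a b) = phi ω a * phi ω b := by
  rcases g4_cases a with rfl | rfl | rfl | rfl <;> rcases g4_cases b with rfl | rfl | rfl | rfl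
  all_goals
    first
      | (show phi ω (0, 0) = _; simp only [phi00, phi10, phi01, phi11] <;> grind)
      | (show phi ω (1, 0) = _; simp only [phi00, phi10, phi01, phi11] <;> grind)
      | (show phi ω (0, 1) = _; simp only [phi00, phi10, phi01, phi11] <;> grind)
      | (show phi ω (1, 1) = _; simp only [phi00, phi10, phi01, phi11] <;> grind)

theorem phi_w : phi ω w = ω := phi01 ω
theorem phi_w2 (h2 : (2 : F) = 0) (hω : ω ^ 2 + ω + 1 = 0) : phi ω w2 = ω ^ 2 := by
  show phi ω (1, 1) = _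
  rw [phi11]; grind

theorem phi_eq_zero (h2 : (2 : F) = 0) (hω : ω ^ 2 + ω + 1 = 0) (a : G4) :
    phi ω a = 0 ↔ a = 0 := by
  have h1 : (1 : F) ≠ 0 := one_ne_zero
  constructor
  · intro h
    rcases g4_cases a with rfl | rfl | rfl | rfl
    · rfl
    · rw [phi10] at h; exact absurd h h1
    · rw [phi01] at h; exfalso; apply h1; grind
    · rw [phi11] at h; exfalso; apply h1; grind
  · rintro rfl; exact phi00 ω

theorem phi_injective (h2 : (2 : F) = 0) (hω : ω ^ 2 + ω + 1 = 0) :
    Function.Injective (phi ω) := by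
  intro a b h
  have : phi ω (a + b) = 0 := by rw [phi_add h2, h]; grind
  rw [phi_eq_zero h2 hω] at this
  revert this
  exact (by decide : ∀ a b : G4, a + b = 0 → a = b) a b

theorem phi_bijective [Fintype F] (hF : Fintype.card F = 4) (hω : ω ^ 2 + ω + 1 = 0) :
    Function.Bijective (phi ω) := by
  rw [Fintype.bijective_iff_injective_and_card]
  exact ⟨phi_injective (two_eq_zero hF) hω, by rw [hF]; rfl⟩

end

/-- The model hexacode word with coefficients `t`. -/
def mw (t : G4 × G4 × G4) : Fin 6 → G4 :=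
  ![mul t.1 w + mul t.2.1 w2 + mul t.2.2 w2, mul t.1 w2 + mul t.2.1 w + mul t.2.2 w,
    mul t.1 w2 + mul t.2.1 w + mul t.2.2 w2, mul t.1 w + mul t.2.1 w2 + mul t.2.2 w,
    mul t.1 w2 + mul t.2.1 w2 + mul t.2.2 w, mul t.1 w + mul t.2.1 w + mul t.2.2 w2]

theorem mw_injective : Function.Injective mw := by
  intro a b; revert a b; decide +kernel

variable {F : Type*} [Field F] {ω : F}

theorem mem_iff [Fintype F] (hF : Fintype.card F = 4) (hω : ω ^ 2 + ω + 1 = 0) (x : Fin 6 → F) :
    x ∈ hexacode F ω ↔ ∃ t, (fun i => phi ω (mw t i)) = x := by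
  have h2 := two_eq_zero hF
  have key : ∀ a b c : G4, phi ω a • (![ω, ω ^ 2, ω ^ 2, ω, ω ^ 2, ω] : Fin 6 → F) +
      phi ω b • ![ω ^ 2, ω, ω, ω ^ 2, ω ^ 2, ω] + phi ω c • ![ω ^ 2, ω, ω ^ 2, ω, ω, ω ^ 2] =
      fun i => phi ω (mw (a, b, c) i) := by
    intro a b c
    funext i
    fin_cases i <;> simp [mw, phi_add h2, phi_mul h2 hω, phi_w, phi_w2 h2 hω]
  show x ∈ Submodule.span F _ ↔ _
  rw [Submodule.mem_span_triple]
  constructor
  · rintro ⟨a, b, c, rfl⟩
    obtain ⟨a, rfl⟩ := (phi_bijective hF hω).2 a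
    obtain ⟨b, rfl⟩ := (phi_bijective hF hω).2 b
    obtain ⟨c, rfl⟩ := (phi_bijective hF hω).2 c
    exact ⟨(a, b, c), (key a b c).symm⟩
  · rintro ⟨⟨a, b, c⟩, rfl⟩
    exact ⟨_, _, _, key a b c⟩

theorem word_injective [Fintype F] (hF : Fintype.card F = 4) (hω : ω ^ 2 + ω + 1 = 0) :
    Function.Injective fun t i => phi ω (mw t i) := by
  intro a b h
  apply mw_injective
  funext i
  exact phi_injective (two_eq_zero hF) hω (congrFun h i)

theorem supp_word [Fintype F] [DecidableEq F] (hF : Fintype.card F = 4) (hω : ω ^ 2 + ω + 1 = 0)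
    (t : G4 × G4 × G4) : (Finset.univ.filter fun i => phi ω (mw t i) ≠ 0) =
      Finset.univ.filter fun i => mw t i ≠ 0 := by
  ext i
  simp [phi_eq_zero (two_eq_zero hF) hω]

theorem ncard_weight [Fintype F] [DecidableEq F] (hF : Fintype.card F = 4)
    (hω : ω ^ 2 + ω + 1 = 0) (k : ℕ) :
    {x : Fin 6 → F | x ∈ hexacode F ω ∧ (Finset.univ.filter fun i => x i ≠ 0).card = k}.ncard =
      (Finset.univ.filter fun t : G4 × G4 × G4 =>
        (Finset.univ.filter fun i => mw t i ≠ 0).card = k).card := by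
  have : {x : Fin 6 → F | x ∈ hexacode F ω ∧ (Finset.univ.filter fun i => x i ≠ 0).card = k} =
      (fun t i => phi ω (mw t i)) '' ↑(Finset.univ.filter fun t : G4 × G4 × G4 =>
        (Finset.univ.filter fun i => mw t i ≠ 0).card = k) := by
    ext x
    simp only [mem_iff hF hω, Set.mem_ofPred_eq, Set.mem_image, Finset.coe_filter, Finset.mem_univ,
      true_and]
    constructor
    · rintro ⟨⟨t, rfl⟩, h⟩; exact ⟨t, by rwa [supp_word hF hω] at h, rfl⟩
    · rintro ⟨t, h, rfl⟩; exact ⟨⟨t, rfl⟩, by rwa [supp_word hF hω]⟩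
  rw [this, Set.ncard_image_of_injective _ (word_injective hF hω), Set.ncard_coe_finset]

theorem card_code [Fintype F] (hF : Fintype.card F = 4) (hω : ω ^ 2 + ω + 1 = 0) :
    Nat.card (hexacode F ω) = 64 := by
  have e : G4 × G4 × G4 ≃ hexacode F ω := Equiv.ofBijective
    (fun t => ⟨fun i => phi ω (mw t i), (mem_iff hF hω _).2 ⟨t, rfl⟩⟩)
    ⟨fun a b h => word_injective hF hω (congrArg Subtype.val h),
     fun ⟨x, hx⟩ => by
      obtain ⟨t, rfl⟩ := (mem_iff hF hω _).1 hx
      exact ⟨t, rfl⟩⟩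
  rw [← Nat.card_congr e]
  simp

theorem weight_cases (t : G4 × G4 × G4) : (∀ i, mw t i = 0) ∨
    (Finset.univ.filter fun i => mw t i ≠ 0).card = 4 ∨
    (Finset.univ.filter fun i => mw t i ≠ 0).card = 6 := by
  revert t; decide +kernel

theorem weight_of_mem [Fintype F] [DecidableEq F] (hF : Fintype.card F = 4)
    (hω : ω ^ 2 + ω + 1 = 0) (x : Fin 6 → F) (hx : x ∈ hexacode F ω) (h0 : x ≠ 0) :
    (Finset.univ.filter fun i => x i ≠ 0).card = 4 ∨
      (Finset.univ.filter fun i => x i ≠ 0).card = 6 := by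
  obtain ⟨t, rfl⟩ := (mem_iff hF hω _).1 hx
  rw [supp_word hF hω]
  rcases weight_cases t with h | h
  · exfalso; apply h0; funext i; rw [h i]; exact phi00 ω
  · exact h

end H55.Hexa
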