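import Cfsg.Agent.Base

set_option autoImplicit false
open Cfsg

namespace H55.Monomial

variable {α F : Type*} [Field F]

theorem mono_apply (σ : Equiv.Perm α) (c : α → Fˣ) (x : α → F) (i : α) :
    monomialMap σ c x i = (c i : F) * x (σ.symm i) := rfl

/-- the monomial map as a linear map -/
def monoL (σ : Equiv.Perm α) (c : α → Fˣ) : (α → F) →ₗ[F] (α → F) where
  toFun := monomialMap σ c
  map_add' x y := by funext i; simp only [mono_apply, Pi.add_apply]; ring
  map_smul' a x := by
    funext i; simp only [mono_apply, Pi.smul_apply, smul_eq_mul, RingHom.id_apply]; ring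

theorem mono_mono (σ τ : Equiv.Perm α) (c d : α → Fˣ) (x : α → F) :
    monomialMap σ c (monomialMap τ d x) =
      monomialMap (σ * τ) (fun i => c i * d (σ.symm i)) x := by
  funext i
  simp only [mono_apply, Units.val_mul, mul_assoc]
  rfl

theorem mono_injective (σ : Equiv.Perm α) (c : α → Fˣ) :
    Function.Injective (monomialMap σ c : (α → F) → α → F) := by
  intro x y h
  funext i
  have := congrFun h (σ i)
  simpa [mono_apply] using this

/-- `(σ, c)` preserves the code `C`. -/
def Pres (C : Submodule F (α → F)) (σ : Equiv.Perm α) (c : α → Fˣ) : Prop :=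
  ∀ x ∈ C, monomialMap σ c x ∈ C

theorem pres_of_span {S : Set (α → F)} {C : Submodule F (α → F)} (hC : C ≤ Submodule.span F S)
    {σ : Equiv.Perm α} {c : α → Fˣ} (h : ∀ x ∈ S, monomialMap σ c x ∈ C) : Pres C σ c := by
  intro x hx
  have : Submodule.span F S ≤ C.comap (monoL σ c) := Submodule.span_le.2 h
  exact this (hC hx)

theorem Pres.surj [Finite α] [Finite F] {C : Submodule F (α → F)} {σ : Equiv.Perm α} {c : α → Fˣ}
    (h : Pres C σ c) (y : α → F) (hy : y ∈ C) : ∃ x ∈ C, monomialMap σ c x = y := by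
  let f : C → C := fun x => ⟨monomialMap σ c x, h x x.2⟩
  have hf : Function.Injective f := fun a b hab =>
    Subtype.ext (mono_injective σ c (congrArg Subtype.val hab))
  obtain ⟨x, hx⟩ := Finite.surjective_of_injective hf ⟨y, hy⟩
  exact ⟨x, x.2, congrArg Subtype.val hx⟩

theorem Pres.mul {C : Submodule F (α → F)} {σ τ : Equiv.Perm α} {c d : α → Fˣ}
    (h : Pres C σ c) (h' : Pres C τ d) : Pres C (σ * τ) (fun i => c i * d (σ.symm i)) := by
  intro x hx
  rw [← mono_mono]
  exact h _ (h' x hx)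

theorem Pres.inv [Finite α] [Finite F] {C : Submodule F (α → F)} {σ : Equiv.Perm α} {c : α → Fˣ}
    (h : Pres C σ c) : Pres C σ⁻¹ (fun i => (c (σ i))⁻¹) := by
  intro y hy
  obtain ⟨x, hx, rfl⟩ := h.surj y hy
  convert hx using 1
  funext i
  simp [mono_apply, Equiv.Perm.inv_def]

/-- The permutation parts of the monomial automorphisms of a code. -/
def permPart [Finite α] [Finite F] (C : Submodule F (α → F)) : Subgroup (Equiv.Perm α) where
  carrier := {σ | ∃ c, Pres C σ c}
  one_mem' := ⟨1, fun x hx => by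
    convert hx using 1; funext i; rw [mono_apply]; exact one_mul _⟩
  mul_mem' := fun ⟨_, h⟩ ⟨_, h'⟩ => ⟨_, h.mul h'⟩
  inv_mem' := fun ⟨_, h⟩ => ⟨_, h.inv⟩

theorem Pres.smul {C : Submodule F (α → F)} {σ : Equiv.Perm α} {c : α → Fˣ}
    (h : Pres C σ c) (u : Fˣ) : Pres C σ (fun i => u * c i) := by
  intro x hx
  convert C.smul_mem (u : F) (h x hx) using 1
  funext i
  simp [mono_apply, mul_assoc]

/-- If the diagonal automorphisms are the scalars, the monomial group has order
`|permPart| * |Fˣ|`. -/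
theorem card_monomial [Finite α] [Finite F] [Nonempty α] (C : Submodule F (α → F))
    (hdiag : ∀ c : α → Fˣ, Pres C 1 c → ∀ i j, c i = c j) :
    Nat.card {f : Equiv.Perm α × (α → Fˣ) // ∀ x ∈ C, monomialMap f.1 f.2 x ∈ C} =
      Nat.card (permPart C) * Nat.card Fˣ := by
  rw [← Nat.card_prod]
  symm
  have ch : ∀ σ : permPart C, ∃ c, Pres C σ c := fun σ => σ.2
  choose c hc using ch
  obtain ⟨i0⟩ := ‹Nonempty α›
  refine Nat.card_congr (Equiv.ofBijective
    (fun p => ⟨(p.1.1, fun i => p.2 * c p.1 i), (hc p.1).smul p.2⟩) ⟨?_, ?_⟩)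
  · rintro ⟨σ, u⟩ ⟨τ, v⟩ h
    have h1 : σ = τ := Subtype.ext (congrArg (fun p => p.1.1) h)
    subst h1
    have h2 : u * c σ i0 = v * c σ i0 := congrFun (congrArg (fun p => p.1.2) h) i0
    rw [mul_right_cancel h2]
  · rintro ⟨⟨σ, d⟩, hd⟩
    let s : permPart C := ⟨σ, d, hd⟩
    have h1 := Pres.mul (C := C) (σ := σ) (c := d) hd (hc s).inv
    have h2 : σ * (s : Equiv.Perm α)⁻¹ = 1 := mul_inv_cancel σ
    rw [h2] at h1
    have h3 := hdiag _ h1
    refine ⟨(s, d i0 * (c s i0)⁻¹), Subtype.ext (Prod.ext rfl ?_)⟩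
    funext i
    have h4 := h3 i i0
    simp only [s, Equiv.apply_symm_apply] at h4
    show d i0 * (c s i0)⁻¹ * c s i = d i
    rw [← h4]; simp [s]

theorem alternating_le {β : Type*} [Fintype β] [DecidableEq β] (H : Subgroup (Equiv.Perm β))
    (h : ∀ a b c, a ≠ b → a ≠ c → Equiv.swap a b * Equiv.swap a c ∈ H) :
    alternatingGroup β ≤ H := by
  have h2 : ∀ a b x y, a ≠ b → x ≠ y → Equiv.swap a b * Equiv.swap x y ∈ H := by
    intro a b x y hab hxy
    by_cases hax : a = x
    · subst hax; exact h a b y hab hxy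
    · have := H.mul_mem (h a b x hab hax) (h x a y (Ne.symm hax) hxy)
      rwa [Equiv.swap_comm x a, mul_assoc, ← mul_assoc (Equiv.swap a x), Equiv.swap_mul_self,
        one_mul] at this
  have key : ∀ σ : Equiv.Perm β, (Equiv.Perm.sign σ = 1 → σ ∈ H) ∧
      (Equiv.Perm.sign σ = -1 → ∀ a b, a ≠ b → Equiv.swap a b * σ ∈ H) := by
    intro σ
    induction σ using Equiv.Perm.swap_induction_on with
    | one => exact ⟨fun _ => H.one_mem, fun h => by simp at h⟩
    | swap_mul σ x y hxy ih =>
      rw [Equiv.Perm.sign_mul, Equiv.Perm.sign_swap hxy]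
      constructor
      · intro hs
        apply ih.2 _ x y hxy
        rw [← neg_neg (Equiv.Perm.sign σ), ← hs]; simp
      · intro hs a b hab
        rw [← mul_assoc]
        apply H.mul_mem (h2 a b x y hab hxy) (ih.1 _)
        simpa using hs
  intro σ hσ
  exact (key σ).1 (Equiv.Perm.mem_alternatingGroup.1 hσ)

end H55.Monomial
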