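import Mathlib
import Cfsg.Prelude.Def_SporadicCombinatorics
import Cfsg.Agent.Lib.Spor55.Design

set_option autoImplicit false
open Cfsg

namespace H55.Ternary

/-- Parameter space for the ternary code. -/
abbrev P6 : Type := ZMod 3 × ZMod 3 × ZMod 3 × ZMod 3 × ZMod 3 × ZMod 3

/-- The code word with prescribed information symbols. -/
def word (t : P6) : ArrayPt → ZMod 3 := fun p =>
  let a := t.1; let b := t.2.1; let c := t.2.2.1; let d := t.2.2.2.1; let e := t.2.2.2.2.1
  let f := t.2.2.2.2.2
  (![![a, b, c], ![d, e, a + b + c + 2 * d + 2 * e],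
    ![f, 2 * b + c + 2 * d + e + f, a + 2 * b + d + 2 * e + f],
    ![a + 2 * b + 2 * c + 2 * d + 2 * f, a + c + d + e + 2 * f, 2 * a + 2 * b + c + 2 * e + 2 * f]]
    : Fin 4 → Fin 3 → ZMod 3) p.1 p.2

/-- The information symbols of a word. -/
def info (x : ArrayPt → ZMod 3) : P6 :=
  (x (0, 0), x (0, 1), x (0, 2), x (1, 0), x (1, 1), x (2, 0))

theorem info_word (t : P6) : info (word t) = t := rfl

theorem word_injective : Function.Injective word :=
  Function.LeftInverse.injective info_word

theorem mem_tetracode (t : Fin 4 → ZMod 3) :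
    t ∈ tetracode ↔ ∃ a b : ZMod 3, t = ![b, a, a + b, a + 2 * b] := by
  unfold tetracode
  rw [Submodule.mem_span_pair]
  refine exists_congr fun a => exists_congr fun b => ?_
  have : a • (![0, 1, 1, 1] : Fin 4 → ZMod 3) + b • ![1, 0, 1, 2] = ![b, a, a + b, a + 2 * b] := by
    funext i; fin_cases i <;> simp <;> ring
  rw [this, eq_comm]

theorem sum_zmod3 (f : ZMod 3 → ZMod 3) : ∑ r, f r = f 0 + f 1 + f 2 :=
  Fin.sum_univ_three f

theorem zmod3_cases (a : ZMod 3) : a = 0 ∨ a = 1 ∨ a = 2 := by revert a; decide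

theorem word_mem (t : P6) : word t ∈ ternaryGolayCode := by
  obtain ⟨a, b, c, d, e, f⟩ := t
  refine ⟨-(a + b + c), ?_, ?_⟩
  · intro i
    rw [sum_zmod3]
    fin_cases i
    · show a + b + c = _
      grind
    · show d + e + (a + b + c + 2 * d + 2 * e) = _
      grind
    · show f + (2 * b + c + 2 * d + e + f) + (a + 2 * b + d + 2 * e + f) = _
      grind
    · show (a + 2 * b + 2 * c + 2 * d + 2 * f) + (a + c + d + e + 2 * f) +
        (2 * a + 2 * b + c + 2 * e + 2 * f) = _
      grind
  · intro u hu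
    obtain ⟨r, s, rfl⟩ := (mem_tetracode u).1 hu
    rw [Fin.sum_univ_four]
    clear hu
    rcases zmod3_cases r with rfl | rfl | rfl <;> rcases zmod3_cases s with rfl | rfl | rfl
    · show a + d + f + (a + 2 * b + 2 * c + 2 * d + 2 * f) = _
      grind
    · show b + d + (2 * b + c + 2 * d + e + f) + (2 * a + 2 * b + c + 2 * e + 2 * f) = _
      grind
    · show c + d + (a + 2 * b + d + 2 * e + f) + (a + c + d + e + 2 * f) = _
      grind
    · show a + e + (2 * b + c + 2 * d + e + f) + (a + c + d + e + 2 * f) = _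
      grind
    · show b + e + (a + 2 * b + d + 2 * e + f) + (a + 2 * b + 2 * c + 2 * d + 2 * f) = _
      grind
    · show c + e + f + (2 * a + 2 * b + c + 2 * e + 2 * f) = _
      grind
    · show a + (a + b + c + 2 * d + 2 * e) + (a + 2 * b + d + 2 * e + f) +
        (2 * a + 2 * b + c + 2 * e + 2 * f) = _
      grind
    · show b + (a + b + c + 2 * d + 2 * e) + f + (a + c + d + e + 2 * f) = _
      grind
    · show c + (a + b + c + 2 * d + 2 * e) + (2 * b + c + 2 * d + e + f) +
        (a + 2 * b + 2 * c + 2 * d + 2 * f) = _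
      grind

theorem eq_word_of_mem {x : ArrayPt → ZMod 3} (hx : x ∈ ternaryGolayCode) : x = word (info x) := by
  obtain ⟨s, h1, h2⟩ := hx
  have c0 := h1 0
  have c1 := h1 1
  have c2 := h1 2
  have c3 := h1 3
  have h3 : ∀ a b : ZMod 3, x (0, b) + x (1, a) + x (2, a + b) + x (3, a + 2 * b) = s := by
    intro a b
    have := h2 _ ((mem_tetracode _).2 ⟨a, b, rfl⟩)
    rw [Fin.sum_univ_four] at this
    exact this
  rw [sum_zmod3] at c0 c1 c2 c3
  have e00 : x (0, 0) + x (1, 0) + x (2, 0) + x (3, 0) = s := h3 0 0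
  have e01 : x (0, 1) + x (1, 0) + x (2, 1) + x (3, 2) = s := h3 0 1
  have e02 : x (0, 2) + x (1, 0) + x (2, 2) + x (3, 1) = s := h3 0 2
  have e10 : x (0, 0) + x (1, 1) + x (2, 1) + x (3, 1) = s := h3 1 0
  have e11 : x (0, 1) + x (1, 1) + x (2, 2) + x (3, 0) = s := h3 1 1
  have e12 : x (0, 2) + x (1, 1) + x (2, 0) + x (3, 2) = s := h3 1 2
  have e20 : x (0, 0) + x (1, 2) + x (2, 2) + x (3, 2) = s := h3 2 0
  have e21 : x (0, 1) + x (1, 2) + x (2, 0) + x (3, 1) = s := h3 2 1
  have e22 : x (0, 2) + x (1, 2) + x (2, 1) + x (3, 0) = s := h3 2 2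
  have g1 : x (1, 2) = x (0, 0) + x (0, 1) + x (0, 2) + 2 * x (1, 0) + 2 * x (1, 1) := by grind
  have g2 : x (2, 1) = 2 * x (0, 1) + x (0, 2) + 2 * x (1, 0) + x (1, 1) + x (2, 0) := by grind
  have g3 : x (2, 2) = x (0, 0) + 2 * x (0, 1) + x (1, 0) + 2 * x (1, 1) + x (2, 0) := by grind
  have g4 : x (3, 0) = x (0, 0) + 2 * x (0, 1) + 2 * x (0, 2) + 2 * x (1, 0) + 2 * x (2, 0) := by
    grind
  have g5 : x (3, 1) = x (0, 0) + x (0, 2) + x (1, 0) + x (1, 1) + 2 * x (2, 0) := by grind
  have g6 : x (3, 2) = 2 * x (0, 0) + 2 * x (0, 1) + x (0, 2) + 2 * x (1, 1) + 2 * x (2, 0) := by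
    grind
  funext ⟨i, r⟩
  fin_cases i <;> fin_cases r <;> first | rfl | assumption

theorem mem_iff (x : ArrayPt → ZMod 3) : x ∈ ternaryGolayCode ↔ ∃ t, word t = x :=
  ⟨fun h => ⟨_, (eq_word_of_mem h).symm⟩, fun ⟨t, ht⟩ => ht ▸ word_mem t⟩

theorem weight_cases (t : P6) : t = 0 ∨ (ternarySupport (word t)).card = 6 ∨
    (ternarySupport (word t)).card = 9 ∨ (ternarySupport (word t)).card = 12 := by
  revert t; decide +kernel

theorem count6 : (Finset.univ.filter fun t : P6 => (ternarySupport (word t)).card = 6).card = 264 := by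
  decide +kernel
theorem count9 : (Finset.univ.filter fun t : P6 => (ternarySupport (word t)).card = 9).card = 440 := by
  decide +kernel
theorem count12 : (Finset.univ.filter fun t : P6 => (ternarySupport (word t)).card = 12).card = 24 := by
  decide +kernel

theorem word_zero : word 0 = 0 := by decide +kernel

theorem ncard_weight (k : ℕ) :
    {x : ArrayPt → ZMod 3 | x ∈ ternaryGolayCode ∧ (ternarySupport x).card = k}.ncard =
      (Finset.univ.filter fun t : P6 => (ternarySupport (word t)).card = k).card := by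
  have : {x : ArrayPt → ZMod 3 | x ∈ ternaryGolayCode ∧ (ternarySupport x).card = k} =
      word '' ↑(Finset.univ.filter fun t : P6 => (ternarySupport (word t)).card = k) := by
    ext x
    simp only [mem_iff, Set.mem_ofPred_eq, Set.mem_image, Finset.coe_filter, Finset.mem_univ,
      true_and]
    constructor
    · rintro ⟨⟨t, rfl⟩, h⟩; exact ⟨t, h, rfl⟩
    · rintro ⟨t, h, rfl⟩; exact ⟨⟨t, rfl⟩, h⟩
  rw [this, Set.ncard_image_of_injective _ word_injective, Set.ncard_coe_finset]

theorem card_code : Nat.card ternaryGolayCode = 729 := by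
  have e : P6 ≃ ternaryGolayCode := Equiv.ofBijective (fun t => ⟨word t, word_mem t⟩)
    ⟨fun a b h => word_injective (congrArg Subtype.val h),
     fun ⟨x, hx⟩ => ⟨info x, Subtype.ext (eq_word_of_mem hx).symm⟩⟩
  rw [← Nat.card_congr e]
  simp [P6]

theorem weight_of_mem {x : ArrayPt → ZMod 3} (hx : x ∈ ternaryGolayCode) (h0 : x ≠ 0) :
    (ternarySupport x).card = 6 ∨ (ternarySupport x).card = 9 ∨ (ternarySupport x).card = 12 := by
  obtain ⟨t, rfl⟩ := (mem_iff x).1 hx
  rcases weight_cases t with rfl | h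
  · exact absurd word_zero h0
  · exact h

theorem self_orth {x y : ArrayPt → ZMod 3} (hx : x ∈ ternaryGolayCode)
    (hy : y ∈ ternaryGolayCode) : ∑ p, x p * y p = 0 := by
  obtain ⟨⟨a, b, c, d, e, f⟩, rfl⟩ := (mem_iff x).1 hx
  obtain ⟨⟨a', b', c', d', e', f'⟩, rfl⟩ := (mem_iff y).1 hy
  rw [Fintype.sum_prod_type, Fin.sum_univ_four, sum_zmod3, sum_zmod3, sum_zmod3, sum_zmod3]
  show a * a' + b * b' + c * c' + (d * d' + e * e' +
      (a + b + c + 2 * d + 2 * e) * (a' + b' + c' + 2 * d' + 2 * e')) +
    (f * f' + (2 * b + c + 2 * d + e + f) * (2 * b' + c' + 2 * d' + e' + f') +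
      (a + 2 * b + d + 2 * e + f) * (a' + 2 * b' + d' + 2 * e' + f')) +
    ((a + 2 * b + 2 * c + 2 * d + 2 * f) * (a' + 2 * b' + 2 * c' + 2 * d' + 2 * f') +
      (a + c + d + e + 2 * f) * (a' + c' + d' + e' + 2 * f') +
      (2 * a + 2 * b + c + 2 * e + 2 * f) * (2 * a' + 2 * b' + c' + 2 * e' + 2 * f')) = 0
  grind

theorem mem_support (x : ArrayPt → ZMod 3) (p : ArrayPt) : p ∈ ternarySupport x ↔ x p ≠ 0 := by
  simp [ternarySupport]

theorem support_neg (x : ArrayPt → ZMod 3) : ternarySupport (-x) = ternarySupport x := by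
  ext p; simp [mem_support]

theorem weight_identity (x y : ArrayPt → ZMod 3) :
    (ternarySupport (x + y)).card + (ternarySupport (x - y)).card +
      3 * (ternarySupport x ∩ ternarySupport y).card =
      2 * ((ternarySupport x).card + (ternarySupport y).card) := by
  unfold ternarySupport
  rw [← Finset.filter_and]
  simp only [Finset.card_filter, Finset.mul_sum, ← Finset.sum_add_distrib]
  refine Finset.sum_congr rfl fun p _ => ?_
  exact (by decide : ∀ a b : ZMod 3, (((if a + b ≠ 0 then 1 else 0) + if a - b ≠ 0 then 1 else 0) +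
      3 * if a ≠ 0 ∧ b ≠ 0 then 1 else 0) =
      2 * ((if a ≠ 0 then 1 else 0) + if b ≠ 0 then 1 else 0)) (x p) (y p)

/-- Two weight-6 words whose supports share five points are equal up to sign. -/
theorem eq_or_neg {x y : ArrayPt → ZMod 3} (hx : x ∈ ternaryGolayCode)
    (hy : y ∈ ternaryGolayCode) (hx6 : (ternarySupport x).card = 6)
    (hy6 : (ternarySupport y).card = 6)
    (h : 5 ≤ (ternarySupport x ∩ ternarySupport y).card) : y = x ∨ y = -x := by
  have e := weight_identity x y
  by_cases h1 : x - y = 0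
  · exact Or.inl (sub_eq_zero.1 h1).symm
  by_cases h2 : x + y = 0
  · exact Or.inr (eq_neg_of_add_eq_zero_right h2)
  have a := weight_of_mem (Submodule.sub_mem _ hx hy) h1
  have b := weight_of_mem (Submodule.add_mem _ hx hy) h2
  omega

/-- The hexads of the ternary code. -/
abbrev hexads : Set (Finset ArrayPt) :=
  {h : Finset ArrayPt | ∃ x ∈ ternaryGolayCode, ternarySupport x = h ∧ h.card = 6}

theorem hexads_ncard : hexads.ncard = 132 := by
  classical
  have h264 := (ncard_weight 6).trans count6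
  have hfin : {x : ArrayPt → ZMod 3 | x ∈ ternaryGolayCode ∧ (ternarySupport x).card = 6} =
      ↑(Finset.univ.filter fun x : ArrayPt → ZMod 3 =>
        x ∈ ternaryGolayCode ∧ (ternarySupport x).card = 6) := by
    ext x; simp
  rw [hfin, Set.ncard_coe_finset] at h264
  set W := Finset.univ.filter fun x : ArrayPt → ZMod 3 =>
        x ∈ ternaryGolayCode ∧ (ternarySupport x).card = 6 with hW
  have mem : ∀ x, x ∈ W ↔ x ∈ ternaryGolayCode ∧ (ternarySupport x).card = 6 := fun x => by
    simp [hW]
  have h1 : hexads = ↑(W.image ternarySupport) := by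
    ext h
    simp only [Set.mem_ofPred_eq, Finset.coe_image, Set.mem_image, Finset.mem_coe, mem]
    constructor
    · rintro ⟨x, hx, rfl, h6⟩; exact ⟨x, ⟨hx, h6⟩, rfl⟩
    · rintro ⟨x, ⟨hx, h6⟩, rfl⟩; exact ⟨x, hx, rfl, h6⟩
  rw [h1, Set.ncard_coe_finset]
  rw [Finset.card_eq_sum_card_image ternarySupport,
    Finset.sum_congr rfl (g := fun _ => 2)] at h264
  · simp only [Finset.sum_const, smul_eq_mul] at h264
    omega
  · intro h hh
    obtain ⟨x, hx, rfl⟩ := Finset.mem_image.1 hh
    rw [mem] at hx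
    have hne : x ≠ -x := by
      intro h
      have h0 : x = 0 := by
        funext p
        have := congrFun h p
        simp only [Pi.neg_apply] at this
        show x p = 0
        generalize x p = a at this
        revert a; decide
      have := hx.2
      rw [h0] at this
      revert this; decide
    refine Eq.trans ?_ (Finset.card_pair hne)
    congr 1
    ext y
    simp only [Finset.mem_filter, mem, Finset.mem_insert, Finset.mem_singleton]
    constructor
    · rintro ⟨⟨hy, hy6⟩, he⟩
      exact eq_or_neg hx.1 hy hx.2 hy6 (by rw [he, Finset.inter_self, hx.2]; norm_num)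
    · rintro (rfl | rfl)
      · exact ⟨hx, rfl⟩
      · exact ⟨⟨Submodule.neg_mem _ hx.1, by rw [support_neg]; exact hx.2⟩, support_neg x⟩

theorem hexads_steiner : IsSteinerSystem 5 6 hexads := by
  apply H55.Design.steiner_of_count
  · rintro b ⟨x, -, -, h⟩; exact h
  · rintro b ⟨x, hx, rfl, hx6⟩ c ⟨y, hy, rfl, hy6⟩ h
    rcases eq_or_neg hx hy hx6 hy6 h with rfl | rfl
    · rfl
    · exact (support_neg x).symm
  · rw [hexads_ncard]; decide

theorem support_monomial (σ : Equiv.Perm ArrayPt) (c : ArrayPt → (ZMod 3)ˣ)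
    (x : ArrayPt → ZMod 3) : ternarySupport (monomialMap σ c x) = (ternarySupport x).image σ := by
  ext p
  simp only [mem_support, monomialMap, ne_eq, mul_eq_zero, Units.ne_zero, false_or,
    Finset.mem_image]
  constructor
  · intro h; exact ⟨σ.symm p, h, by simp⟩
  · rintro ⟨q, hq, rfl⟩; simpa using hq

theorem diag_kernel (c : ArrayPt → (ZMod 3)ˣ)
    (h : ∀ x ∈ ternaryGolayCode, monomialMap 1 c x ∈ ternaryGolayCode) :
    (∀ p, c p = 1) ∨ (∀ p, c p = -1) := by
  have key : ∀ p q, c p = c q := by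
    intro p q
    obtain ⟨s, hs1, -, hs⟩ := Finset.exists_subsuperset_card_eq (s := {p, q}) (t := Finset.univ)
      (n := 5) (Finset.subset_univ _) (Finset.card_le_two.trans (by norm_num)) (by decide)
    obtain ⟨b, ⟨⟨x, hx, rfl, h6⟩, hb⟩, -⟩ := hexads_steiner.2 s hs
    have hp : x p ≠ 0 := (mem_support x p).1 (hb (hs1 (by simp)))
    have hq : x q ≠ 0 := (mem_support x q).1 (hb (hs1 (by simp)))
    have hsupp : ternarySupport (monomialMap 1 c x) = ternarySupport x := by
      rw [support_monomial]; simp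
    apply Units.ext
    rcases eq_or_neg hx (h x hx) h6 (hsupp ▸ h6)
      (by rw [hsupp, Finset.inter_self, h6]; norm_num) with e | e
    · have e1 : (c p : ZMod 3) * x p = x p := congrFun e p
      have e2 : (c q : ZMod 3) * x q = x q := congrFun e q
      generalize (c p : ZMod 3) = u at *
      generalize (c q : ZMod 3) = v at *
      generalize x p = a at *
      generalize x q = b at *
      revert u v a b; decide
    · have e1 : (c p : ZMod 3) * x p = -x p := congrFun e p
      have e2 : (c q : ZMod 3) * x q = -x q := congrFun e q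
      generalize (c p : ZMod 3) = u at *
      generalize (c q : ZMod 3) = v at *
      generalize x p = a at *
      generalize x q = b at *
      revert u v a b; decide
  have : c (0, 0) = 1 ∨ c (0, 0) = -1 := by
    generalize c (0, 0) = u
    revert u; decide
  rcases this with h1 | h1
  · exact Or.inl fun p => (key p _).trans h1
  · exact Or.inr fun p => (key p _).trans h1

end H55.Ternary
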